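import Cfsg.Agent.H13.MonD
/-! Certificates for centralisers in `Co0` of permutation matrices of odd prime order. -/
set_option autoImplicit false
namespace H13
noncomputable section
open MulAction Cfsg H27 Subgroup
open scoped Pointwise

structure TB (γ : CC) (d n : Nat) (Bs : List Nat) (gs : List CC) (Ns : List Net) (X : Nat) : Prop where
  hn : 2 ^ d = n
  inL : allL Bs inL = true
  inj : Set.InjOn (tK Bs) {j | j < n}
  span : ∀ x, γ • x = x → ∃ i < n, x = tK Bs i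
  fix : ∀ i < n, γ • tK Bs i = tK Bs i
  acts : ActsL n (tK Bs) (neg1 :: γ :: gs) (.nil :: .nil :: Ns)
  mem : ∀ g ∈ neg1 :: γ :: gs, g ∈ Cz γ
  sh : ∀ j, X.testBit j = true → Sh (tK Bs j)

def cjChk (A B : List Nat) (M : Nat) : Bool := forceL (cmM M) fun C => leq (mmul C A) (mmul B C)
theorem cj_of_chk {a b : CC} {M : Nat} (hM : cochk M = true) (h : cjChk (mat a) (mat b) M = true) :
    cm M * a = b * cm M := by
  rw [cjChk, forceL_eq, leq_iff, ← mat_cm hM, ← mat_mul, ← mat_mul] at h; exact mat_inj h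
theorem cochk_of_act {n M : Nat} {Bs : List Nat} {N : Net} (h : actChk n Bs M N = true) : cochk M = true := by
  simp only [actChk, and'_eq, Bool.and_eq_true] at h; exact h.1.1
def tbChk (d n p M : Nat) (N : Net) (Bs I Ms : List Nat) (Ns : List Net) (S : List (Nat × Nat)) : Bool :=
  and' (and' (and' (Nat.beq (Nat.shiftLeft 1 d) n) (allL Bs inL)) (and' (injChk d Bs) (actChk n Bs M .nil)))
    (and' (and' (forceL (monoF N.fn 0) fun A => and' (leq (cmM M) A) (allL Ms (cjChk A A))) (spanChk d M p Bs I))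
      (and' (all2 (actChk n Bs) Ms Ns) (shChk n Bs S)))
theorem tb_of {σ : MM} {N : Net} (a : Acts 24 GE.e σ N) {d n p : Nat} (M : Nat) {Bs : List Nat} (I : List Nat)
    {Ms : List Nat} {Ns : List Net} (S : List (Nat × Nat)) (k : Nat) (hp : p % 2 = 1)
    (h : tbChk d n p M N Bs I Ms Ns S = true) :
    TB (pm σ) d n Bs (Ms.map cm) Ns (orb Ns k (orL (mapL Prod.fst S))) := by
  simp only [tbChk, and'_eq, Bool.and_eq_true, forceL_eq, beq_iff, leq_iff] at h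
  obtain ⟨⟨⟨h1, h2⟩, h3, h4⟩, ⟨⟨h5, h6⟩, h7⟩, h8, h9⟩ := h
  obtain rfl : 2 ^ d = n := (Nat.one_shiftLeft d).symm.trans h1
  have c := cochk_of_act h4
  have e : cm M = pm σ := mat_inj ((mat_cm c).trans (h5.trans a.mat_pm.symm))
  have b := e ▸ acts_tK h2 h4
  refine ⟨rfl, h2, tK_inj h2 h3, fun x hx => span_tK h2 c hp I h7 (e ▸ hx), b.act,
    .cons ⟨trivial, fun _ _ => neg1_kl _⟩ (.cons b (actsL_tK h2 h8)), ?_, fun j => sh_orb h2 (actsL_tK h2 h8) h9 k⟩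
  refine List.forall_mem_cons.2 ⟨mem_Cz.2 (neg1_comm _), List.forall_mem_cons.2 ⟨self_mem_Cz _,
    List.forall_mem_map.2 fun M hM => mem_Cz.2 (cj_of_chk ?_ (a.mat_pm ▸ (allL_iff _ _).1 h6 M hM))⟩⟩
  obtain ⟨i, hi, rfl⟩ := List.getElem_of_mem hM
  rw [all2_iff] at h8
  exact cochk_of_act (h8.get hi (h8.length_eq ▸ hi))

theorem mem_K {γ g : CC} : g ∈ cl [neg1, γ] ↔ mk1 g ∈ zpowers (mk1 γ) := by
  refine ⟨fun h => cl_le (H := (zpowers (mk1 γ)).comap mk1) (List.forall_mem_cons.2 ⟨mem_comap.2 (mk1_neg1 ▸ one_mem _),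
    List.forall_mem_singleton.2 (mem_zpowers (mk1 γ))⟩) h, fun ⟨i, h⟩ => ?_⟩
  have a : γ ^ i ∈ cl [neg1, γ] := zpow_mem (mem_cl (by simp)) i
  rcases mk1_eq.1 (h.symm.trans (map_zpow mk1 γ i).symm) with rfl | rfl
  exacts [a, mul_mem (mem_cl (by simp)) a]
theorem card_K {γ : CC} (h : Odd (orderOf γ)) : 2 * orderOf γ ≤ Nat.card (cl [neg1, γ]) := by
  rw [← ord_neg1, ← (neg1_comm γ).orderOf_mul_eq_mul_orderOf_of_coprime (ord_neg1 ▸ h.coprime_two_left),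
    ← Nat.card_zpowers]
  exact card_le_of_le (zpowers_le.2 (mul_mem (mem_cl (by simp)) (mem_cl (by simp))))
theorem ord_pm (σ : MM) : orderOf (pm σ) = orderOf σ := orderOf_injective pm pm_inj σ
theorem card_Cz_NN {σ : MM} {N : Net} (a : Acts 24 GE.e σ N) {k c : Nat} (hT : Nat.card (Cz σ) ≤ c)
    (hk : (cnt 4096 fun a => force (enc a) fun x => Nat.beq (N.rev.app x) x) = k) :
    Nat.card ↥(Cz (pm σ) ⊓ NN) ≤ k * c :=
  card_inf_NN a (fun _ hg => ⟨σ, mem_Cz'.1 hg, fun _ => mem_Cz'.2⟩) hT hk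

namespace TB
variable {γ : CC} {d n : Nat} {Bs : List Nat} {gs : List CC} {Ns : List Net} {X : Nat} (T : TB γ d n Bs gs Ns X)
include T
theorem tab : Tab {x : Kl | γ • x = x} n (tK Bs) := ⟨T.inj, T.fix, fun x h => (T.span x h).imp fun _ a => ⟨a.1, a.2.symm⟩⟩
theorem ncard : {x : Kl | γ • x = x}.ncard = 2 ^ d := T.tab.ncard.trans T.hn.symm
theorem card_le {H : Subgroup CC} (hγ : γ ∈ NN) (hH : ∀ g ∈ H, g⁻¹ * γ * g ∈ zpowers γ) {m c : Nat}
    (hm : pop d n (Nat.xor X (ones n)) = m) (hc : Nat.card ↥(H ⊓ NN) ≤ c) : Nat.card H ≤ m * c := by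
  obtain rfl := T.hn
  exact card_le_cls hγ hH T.inj T.span T.sh hm hc
theorem K_fix {g : CC} (hg : g ∈ cl [neg1, γ]) (i : Nat) (hi : i < n) : g • tK Bs i = tK Bs i :=
  cl_le (H := stabilizer CC (tK Bs i)) (by simpa using ⟨neg1_kl _, T.fix i hi⟩) hg
theorem K_le : cl [neg1, γ] ≤ cl (neg1 :: γ :: gs) := cl_le fun g hg => mem_cl (by
  simp only [List.mem_cons, List.not_mem_nil, or_false] at hg ⊢; tauto)
theorem cd (ho : Odd (orderOf γ)) {Ω : Type*} [MulAction CC Ω] {m c w : Nat} [NeZero m] {e : Nat → Ω}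
    (he : Set.InjOn e {j | j < m}) {Ms : List Net} (a : ActsL m e (neg1 :: γ :: gs) Ms)
    (hf : ∀ g : CC, (∀ i < n, g • tK Bs i = tK Bs i) → ∀ j < m, g • e j = e j) (hc : c ≤ Nat.card (netGrp m Ms))
    (hb : Nat.card (Cz γ) ≤ 2 * orderOf γ * c) (hd : d = 2 * w) :
    cl (neg1 :: γ :: gs) = Cz γ ∧ Nat.card (Cz γ) = 2 * orderOf γ * c ∧ Nat.card (netGrp m Ms) = c ∧
      ∃ φ : Cz γ →* netGrp m Ms, (∀ (g : Cz γ) (i : Fin m), (g : CC) • e i = e ((φ g).1 i)) ∧ Function.Surjective φ ∧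
        (∀ g, φ g = 1 ↔ (g : CC) ∈ cl [neg1, γ]) ∧ (pCore 2 (netGrp m Ms) = ⊥ → CD γ w φ) := by
  obtain ⟨h1, h2, h3, φ, h4, h5, h6⟩ := quot_of_bound he a T.mem T.K_le (fun g hg => hf g (T.K_fix hg)) (card_K ho) hc hb
  exact ⟨h1, h2, h3, φ, h6, h4, h5, fun b => ⟨h4, fun g => (h5 g).trans mem_K, fun g hg => Subtype.ext (Equiv.ext fun i =>
    Fin.ext (he ((φ g).1 i).2 i.2 ((h6 g i).symm.trans (hf g (fun j hj => hg _ (T.fix j hj)) i i.2)))), hd ▸ T.ncard, b⟩⟩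
theorem core (hcl : cl (neg1 :: γ :: gs) = Cz γ) {L : Type*} [Group L] [Finite L] {φ : Cz γ →* L}
    (hφ : Function.Surjective φ) (hk : ∀ g, φ g = 1 ↔ (g : CC) ∈ cl [neg1, γ]) {k Y m : Nat} (hm : Odd m) (h1 : 1 < n)
    (h : and' (orbChk (.nil :: .nil :: Ns) k 1 Y) (Nat.beq (pop d n Y) m) = true)
    (hY : ∀ g : Cz γ, (∀ i < n, Y.testBit i = true → (g : CC) • tK Bs i = tK Bs i) → φ g = 1) : pCore 2 L = ⊥ := by
  obtain ⟨a, b⟩ := T.acts.orbit_ncard hcl T.inj T.hn.ge h1 h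
  refine pCore_bot φ hφ (tK Bs 1) (b ▸ hm) fun g => ?_
  rw [a]
  refine ⟨fun c => ?_, fun c => hY g fun i hi u => c _ ⟨i, ⟨hi, u⟩, rfl⟩⟩
  rintro _ ⟨i, ⟨hi, -⟩, rfl⟩
  exact T.K_fix ((hk g).1 c) i hi
omit T in
theorem fix_of_basis {Y : Nat} (h : (allN Bs.length fun j => force (Nat.shiftLeft 1 j) fun i =>
      and' (Nat.ble (Nat.succ i) n) (tb Y i)) = true)
    {g : CC} (hg : ∀ i < n, Y.testBit i = true → g • tK Bs i = tK Bs i) (i : Nat) : g • tK Bs i = tK Bs i := by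
  refine fix_tK (fun X hX => ?_) i
  obtain ⟨j, hj, rfl⟩ := List.getElem_of_mem hX
  simp only [allN_iff, force_eq, and'_eq, Bool.and_eq_true, Nat.ble_eq, tb_eq] at h
  have := hg _ (h j hj).1 (h j hj).2
  rwa [show Nat.shiftLeft 1 j = 2 ^ j from Nat.one_shiftLeft j, tK_pow hj] at this
end TB
theorem tK_one (Bs : List Nat) : tK (cE :: Bs) 1 = kl (e8 none) := by
  rw [← lv_cE]; exact tK_pow (Bs := cE :: Bs) (j := 0) (Nat.succ_pos _)
theorem fix_setE {G Ω : Type*} [Group G] [MulAction G Ω] {n T : Nat} {e : Nat → Ω} {g : G}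
    (h : ∀ i < n, g • e i = e i) (j : Nat) : g • setE n e T j = setE n e T j := by
  ext x; constructor
  · rintro ⟨_, ⟨i, a, rfl⟩, rfl⟩; exact ⟨i, a, (h i a.1).symm⟩
  · rintro ⟨i, a, rfl⟩; exact ⟨_, ⟨i, a, rfl⟩, h i a.1⟩

end
end H13
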