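import Cfsg.Agent.H26.Rv1

/-! Gauss sums for the real vector argument. -/

set_option autoImplicit false
set_option linter.unusedSectionVars false

namespace H13.Gs
open Cfsg H17 H19 H26Rv Subgroup

universe u
variable {p : ℕ} [Fact p.Prime]

theorem sum_lin {W : Type*} [AddCommGroup W] [Module (ZMod p) W] [Fintype W]
    (e : AddChar (ZMod p) ℂ) {a : ZMod p} (ha : e a ≠ 1) (L : W →ₗ[ZMod p] ZMod p) {d : W}
    (hd : L d ≠ 0) : ∑ w, e (L w) = 0 := by
  have h1 : L ((a / L d) • d) = a := by rw [map_smul, smul_eq_mul, div_mul_cancel₀ _ hd]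
  have h2 : ∑ w, e (L w) = e a * ∑ w, e (L w) := by
    rw [Finset.mul_sum, ← Equiv.sum_comp (Equiv.addLeft ((a / L d) • d))]
    refine Finset.sum_congr rfl fun w _ => ?_
    rw [Equiv.coe_addLeft, map_add, h1, e.map_add_eq_mul]
  have h3 : (e a - 1) * ∑ w, e (L w) = 0 := by rw [sub_mul, ← h2, one_mul, sub_self]
  exact (mul_eq_zero.1 h3).resolve_left (sub_ne_zero.2 ha)

theorem gprod {W : Type*} [AddCommGroup W] [Module (ZMod p) W] [Fintype W]
    (e : AddChar (ZMod p) ℂ) {a : ZMod p} (ha : e a ≠ 1) (γ : W →ₗ[ZMod p] W →ₗ[ZMod p] ZMod p)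
    (hn : ∀ x, (∀ y, γ x y + γ y x = 0) → x = 0) :
    (∑ u, e (γ u u)) * (∑ w, e (-γ w w)) = Nat.card W := by
  classical
  rw [Finset.sum_mul_sum, Finset.sum_comm]
  have h1 : ∀ w : W, ∑ u, e (γ u u) * e (-γ w w) =
      ∑ d, e (γ d d) * e ((γ d + γ.flip d) w) := fun w => by
    rw [← Equiv.sum_comp (Equiv.addLeft w)]
    refine Finset.sum_congr rfl fun d _ => ?_
    rw [Equiv.coe_addLeft, ← e.map_add_eq_mul, ← e.map_add_eq_mul]
    congr 1
    simp only [map_add, LinearMap.add_apply, LinearMap.flip_apply]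
    ring
  simp only [h1]
  rw [Finset.sum_comm, Finset.sum_eq_single (0 : W)]
  · simp
  · intro d _ hd
    rw [← Finset.mul_sum]
    have : ∃ y, γ d y + γ y d ≠ 0 := by
      by_contra c
      push Not at c
      exact hd (hn d c)
    obtain ⟨y, hy⟩ := this
    rw [sum_lin e ha (γ d + γ.flip d) (d := y) (by simpa using hy), mul_zero]
  · simp

theorem gnorm {W : Type*} [AddCommGroup W] [Module (ZMod p) W] [Fintype W]
    (e : AddChar (ZMod p) ℂ) {a : ZMod p} (ha : e a ≠ 1) (γ : W →ₗ[ZMod p] W →ₗ[ZMod p] ZMod p)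
    (hn : ∀ x, (∀ y, γ x y + γ y x = 0) → x = 0) :
    ‖∑ u, e (γ u u)‖ ^ 2 = Nat.card W := by
  have h := gprod e ha γ hn
  have h2 : ∑ w, e (-γ w w) = (starRingEnd ℂ) (∑ u, e (γ u u)) := by
    rw [map_sum]
    exact Finset.sum_congr rfl fun w _ => AddChar.map_neg_eq_conj e _
  rw [h2, Complex.mul_conj, Complex.normSq_eq_norm_sq] at h
  exact_mod_cast h

theorem epow (e : AddChar (ZMod p) ℂ) (a : ZMod p) : e a ^ p = 1 := by
  rw [← e.map_nsmul_eq_pow, nsmul_eq_mul, ZMod.natCast_self, zero_mul, e.map_zero_eq_one]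

theorem eint (e : AddChar (ZMod p) ℂ) (a : ZMod p) : IsIntegral ℤ (e a) :=
  IsIntegral.of_pow (Fact.out : p.Prime).pos (by rw [epow]; exact isIntegral_one)

variable {H : Type u} [Group H] [Finite H] {O : ValuationSubring ℂ}
variable {U : Type u} [AddCommGroup U] [Module (ZMod p) U] [Finite U]

theorem compl (hp : ¬ p ∣ Nat.card H) (ρ : Representation (ZMod p) H U) (h : H) :
    IsCompl (LinearMap.ker (ρ h - 1)) (LinearMap.range (ρ h - 1)) := by
  have hd : Disjoint (LinearMap.ker (ρ h - 1)) (LinearMap.range (ρ h - 1)) := by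
    rw [Submodule.disjoint_def]
    rintro x hx ⟨z, hz⟩
    have hx' : ρ h x = x := by
      have := LinearMap.mem_ker.1 hx
      rwa [LinearMap.sub_apply, Module.End.one_apply, sub_eq_zero] at this
    have hz' : ρ h z = z + x := by
      rw [LinearMap.sub_apply, Module.End.one_apply] at hz
      rw [← hz]; abel
    have key : ∀ k : ℕ, ρ (h ^ k) z = z + (k : ZMod p) • x := fun k => by
      induction k with
      | zero => simp
      | succ k ih =>
        rw [pow_succ', map_mul, Module.End.mul_apply, ih, map_add, map_smul, hx', hz']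
        push_cast
        rw [add_smul, one_smul]; abel
    have h1 := key (Nat.card H)
    rw [pow_card_eq_one', map_one, Module.End.one_apply, left_eq_add] at h1
    exact (smul_eq_zero.1 h1).resolve_left fun c => hp ((ZMod.natCast_eq_zero_iff _ _).1 c)
  refine (Submodule.isCompl_iff_disjoint _ _ ?_).2 hd
  have := LinearMap.finrank_range_add_finrank_ker (ρ h - 1)
  omega

/-- the action on a level set of the form -/
@[reducible] def act {ρ : Representation (ZMod p) H U} {γ : U →ₗ[ZMod p] U →ₗ[ZMod p] ZMod p}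
    (hγ : H26Rv.Inv ρ γ) (a : ZMod p) : MulAction H {u : U // γ u u = a} where
  smul h u := ⟨ρ h u, (hγ h u u).trans u.2⟩
  one_smul u := Subtype.ext (by change ρ 1 u = u; simp)
  mul_smul g h u := Subtype.ext (by change ρ (g * h) u = ρ g (ρ h u); simp)

theorem fix_iff (ρ : Representation (ZMod p) H U) (h : H) (x : U) :
    x ∈ LinearMap.ker (ρ h - 1) ↔ ρ h x = x := by
  rw [LinearMap.mem_ker, LinearMap.sub_apply, Module.End.one_apply, sub_eq_zero]

theorem theta {ρ : Representation (ZMod p) H U} {γ : U →ₗ[ZMod p] U →ₗ[ZMod p] ZMod p}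
    (hγ : H26Rv.Inv ρ γ) (e : AddChar (ZMod p) ℂ) [∀ W : Submodule (ZMod p) U, Fintype W] :
    (fun h => ∑ w : LinearMap.ker (ρ h - 1), e (-γ w w)) ∈ TT H := by
  classical
  have h1 := sum_mem (H := H) Finset.univ (f := fun (a : ZMod p) h => e (-a) *
    (letI := act hγ a; (Nat.card (MulAction.fixedBy {u : U // γ u u = a} h) : ℂ)))
    fun a _ => smul_mem (eint e _) (char_mem (letI := act hγ a; isCharacter_perm _))
  convert h1 using 2 with h
  rw [← Fintype.sum_fiberwise (fun w : LinearMap.ker (ρ h - 1) => γ w w)]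
  refine Finset.sum_congr rfl fun a _ => ?_
  rw [Finset.sum_congr rfl (g := fun _ => e (-a)) (fun w _ => by rw [w.2]), Finset.sum_const,
    nsmul_eq_mul, mul_comm, Finset.card_univ, ← Nat.card_eq_fintype_card]
  congr 2
  letI := act hγ a
  exact Nat.card_congr ⟨fun w => ⟨⟨w.1.1, w.2⟩, Subtype.ext ((fix_iff ρ h _).1 w.1.2)⟩,
    fun w => ⟨⟨w.1.1, (fix_iff ρ h _).2 (congrArg Subtype.val w.2)⟩, w.1.2⟩, fun _ => rfl, fun _ => rfl⟩

theorem gauss [CharP (kk O) p] (hp : ¬ p ∣ Nat.card H) (hi : InvP p H) : GaussP p H O := by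
  intro U _ _ _ ρ γ hγ hn
  classical
  have pp : p.Prime := Fact.out
  letI : ∀ W : Submodule (ZMod p) U, Fintype W := fun W => Fintype.ofFinite W
  letI : Fintype U := Fintype.ofFinite U
  let e : AddChar (ZMod p) ℂ := ZMod.stdAddChar
  have e1 : e 1 ≠ 1 := fun c => one_ne_zero
    (((ZMod.isPrimitive_stdAddChar p).zmod_char_eq_one_iff p 1).1 c)
  have orth : ∀ h, ∀ x ∈ LinearMap.ker (ρ h - 1), ∀ y ∈ LinearMap.range (ρ h - 1),
      γ x y = 0 ∧ γ y x = 0 := by
    rintro h x hx _ ⟨z, rfl⟩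
    have hx' := (fix_iff ρ h x).1 hx
    rw [LinearMap.sub_apply, Module.End.one_apply]
    constructor
    · rw [map_sub, ← hγ h x z, hx', sub_self]
    · rw [map_sub, LinearMap.sub_apply, ← hγ h z x, hx', sub_self]
  have dec : ∀ h, ∀ y : U, ∃ a ∈ LinearMap.ker (ρ h - 1), ∃ b ∈ LinearMap.range (ρ h - 1),
      a + b = y := fun h y =>
    Submodule.mem_sup.1 ((compl hp ρ h).sup_eq_top ▸ Submodule.mem_top)
  have nK : ∀ h, ∀ x : LinearMap.ker (ρ h - 1),
      (∀ y, γ.domRestrict₁₂ _ _ x y + γ.domRestrict₁₂ _ _ y x = 0) → x = 0 := fun h x hx =>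
    Subtype.ext (hn x fun y => by
      obtain ⟨a, ha, b, hb, rfl⟩ := dec h y
      have h1 : γ x a + γ a x = 0 := hx ⟨a, ha⟩
      have h2 := orth h x x.2 b hb
      simp only [map_add, LinearMap.add_apply, h2.1, h2.2, add_zero, h1])
  have nR : ∀ h, ∀ x : LinearMap.range (ρ h - 1),
      (∀ y, γ.domRestrict₁₂ _ _ x y + γ.domRestrict₁₂ _ _ y x = 0) → x = 0 := fun h x hx =>
    Subtype.ext (hn x fun y => by
      obtain ⟨a, ha, b, hb, rfl⟩ := dec h y
      have h1 : γ x b + γ b x = 0 := hx ⟨b, hb⟩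
      have h2 := orth h a ha x x.2
      simp only [map_add, LinearMap.add_apply, h2.1, h2.2, zero_add, h1])
  have fxe : ∀ h, fx ρ ⊤ h = Nat.card (LinearMap.ker (ρ h - 1)) := fun h =>
    Nat.card_congr (Equiv.subtypeEquivRight fun x => by rw [fix_iff]; simp)
  have cm : ∀ h, Nat.card (LinearMap.ker (ρ h - 1)) * Nat.card (LinearMap.range (ρ h - 1)) =
      Nat.card U := fun h => by
    rw [← Nat.card_prod]
    exact Nat.card_congr (Submodule.prodEquivOfIsCompl _ _ (compl hp ρ h)).toEquiv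
  have pr : ∀ h, (∑ w : LinearMap.ker (ρ h - 1), e (γ w w)) *
      (∑ w : LinearMap.range (ρ h - 1), e (γ w w)) = ∑ u : U, e (γ u u) := fun h => by
    rw [Finset.sum_mul_sum, ← Fintype.sum_prod_type',
      ← Equiv.sum_comp (Submodule.prodEquivOfIsCompl _ _ (compl hp ρ h)).toEquiv]
    refine Finset.sum_congr rfl fun w _ => ?_
    have h2 := orth h w.1 w.1.2 w.2 w.2.2
    change _ = e (γ ((w.1 : U) + w.2) ((w.1 : U) + w.2))
    rw [← e.map_add_eq_mul]
    simp only [map_add, LinearMap.add_apply, h2.1, h2.2, zero_add, add_zero]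
  refine ⟨fun h => ∑ w : LinearMap.range (ρ h - 1), e (γ w w), fun σ h => ?_, ?_, fun h => ?_,
    fun h hh => ?_, ?_⟩
  · have := gnorm (σ.toRingHom.toMonoidHom.compAddChar e) (a := 1)
      (fun c => e1 (σ.injective ((show σ (e 1) = 1 from c).trans (map_one σ).symm))) _ (nR h)
    rw [map_sum]
    refine le_of_eq ?_
    rw [fxe, ← cm h, mul_comm]
    push_cast
    congr 1
  · have h0 : ∀ w : LinearMap.range (ρ 1 - 1), w = 0 := by
      rintro ⟨_, z, rfl⟩
      exact Subtype.ext (by simp)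
    rw [Finset.sum_eq_single (0 : LinearMap.range (ρ 1 - 1)) (fun w _ c => absurd (h0 w) c)
      (fun c => absurd (Finset.mem_univ _) c)]
    simp
  · exact IsIntegral.sum _ fun w _ => eint e _
  · have h1 : Nat.card (LinearMap.range (ρ h - 1)) ≠ 1 := fun c => hh (by
      rw [fxe, ← cm h, c, mul_one])
    have h2 : p ∣ Nat.card (LinearMap.range (ρ h - 1)) := by
      rw [Module.natCard_eq_pow_finrank (K := ZMod p), Nat.card_zmod] at h1 ⊢
      exact dvd_pow_self _ fun c => h1 (by rw [c, pow_zero])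
    have h3 : ∑ w : LinearMap.range (ρ h - 1), e (γ w w) =
        ∑ w : LinearMap.range (ρ h - 1), (e (γ w w) - 1) + Nat.card (LinearMap.range (ρ h - 1)) := by
      rw [Finset.sum_sub_distrib, Nat.card_eq_fintype_card]; simp
    rw [h3]
    refine add_mem (sum_mem fun w _ => ?_) ((natCast_mem_nonunits_iff p _).2 h2)
    exact sub_one_mem_nonunits_of_pow_prime_pow p (n := 1) (by rw [pow_one, epow])
  · obtain ⟨N, hN⟩ := hi U ρ
    refine ⟨N, ?_⟩
    have h1 := smul_mem (a := ∑ u : U, e (γ u u)) (IsIntegral.sum _ fun w _ => eint e _)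
      (H26Rv.mul_mem (theta hγ e) hN)
    convert h1 using 2 with h
    have h2 : (∑ w : LinearMap.ker (ρ h - 1), e (γ w w)) *
      (∑ w : LinearMap.ker (ρ h - 1), e (-γ w w)) = Nat.card (LinearMap.ker (ρ h - 1)) :=
      gprod e e1 (γ.domRestrict₁₂ (LinearMap.ker (ρ h - 1)) (LinearMap.ker (ρ h - 1))) (nK h)
    have h3 : (Nat.card (LinearMap.ker (ρ h - 1)) : ℂ) ≠ 0 := Nat.cast_ne_zero.2 Nat.card_pos.ne'
    rw [← pr h, fxe]
    field_simp
    rw [← h2]; ring

end H13.Gs
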