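import Cfsg.Agent.H13.H12b

/-! The last relation of the presentation of `J4`. -/

set_option maxRecDepth 100000
set_option maxHeartbeats 1600000
set_option autoImplicit false
set_option linter.style.longLine false

namespace H13.H12
open Cfsg Cfsg.Spor H7.J4 H29 H29.J4m H29.U Subgroup H25.He4

universe u
variable {G : Type u} [Group G] {M : Model G} {x y e t : G}

theorem tri' (f : Md M x y e) (g : Gd M x y e t) {z : G} (u U a p P q Q s S d0 d1 d2 : Ex)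
    (h : (y * ((u.g [x, y, y⁻¹, e])⁻¹ * t * u.g [x, y, y⁻¹, e])) ^ 3 = z)
    (hu : U.g [x, y, y⁻¹, e] = (u.g [x, y, y⁻¹, e])⁻¹) (hp : P.g [x, y, y⁻¹, e] = (p.g [x, y, y⁻¹, e])⁻¹)
    (hq : Q.g [x, y, y⁻¹, e] = (q.g [x, y, y⁻¹, e])⁻¹) (hs : S.g [x, y, y⁻¹, e] = (s.g [x, y, y⁻¹, e])⁻¹)
    (h0 : band (Nat.beq ((Ex.m P (.m a (.m (.v 1) U))).c kmul kone L4) (d0.c kmul kone DL)) (Nat.beq ((Ex.m P (.m a (.m (.v 1) U))).c kmul kone L4) (d0.c kmul kone DT)) = true)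
    (h1 : band (Nat.beq ((Ex.m Q (.m a (.m (.v 2) U))).c kmul kone L4) (d1.c kmul kone DL)) (Nat.beq ((Ex.m Q (.m a (.m (.v 2) U))).c kmul kone L4) (d1.c kmul kone DT)) = true)
    (h2 : band (Nat.beq ((Ex.m S (.m a U)).c kmul kone L4) (d2.c kmul kone DL)) (Nat.beq ((Ex.m S (.m a U)).c kmul kone L4) (d2.c kmul kone DT)) = true) :
    p.g [x, y, y⁻¹, e] * t * (p.g [x, y, y⁻¹, e])⁻¹ * (q.g [x, y, y⁻¹, e] * t * (q.g [x, y, y⁻¹, e])⁻¹) *
      (s.g [x, y, y⁻¹, e] * t * (s.g [x, y, y⁻¹, e])⁻¹) = a.g [x, y, y⁻¹, e] * z * (a.g [x, y, y⁻¹, e])⁻¹ := by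
  have k0 := cm f g _ _ h0
  have k1 := cm f g _ _ h1
  have k2 := cm f g _ _ h2
  simp only [Ex.g, hu, hp, hq, hs] at k0 k1 k2
  exact tri ((f.s.eq f.h (.p (.v 1) 3) (.v 99) (by decide +kernel)) :) h k0 k1 k2

theorem cmc (f : Md M x y e) (g : Gd M x y e t) (p P a d : Ex) (hp : P.g [x, y, y⁻¹, e] = (p.g [x, y, y⁻¹, e])⁻¹)
    (h : band (Nat.beq ((Ex.m P (.m a p)).c kmul kone L4) (d.c kmul kone DL)) (Nat.beq ((Ex.m P (.m a p)).c kmul kone L4) (d.c kmul kone DT)) = true) :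
    Commute (p.g [x, y, y⁻¹, e] * t * (p.g [x, y, y⁻¹, e])⁻¹) (a.g [x, y, y⁻¹, e]) := by
  have k := cm f g _ _ h
  simp only [Ex.g, hp] at k
  generalize p.g [x, y, y⁻¹, e] = p at k ⊢
  generalize a.g [x, y, y⁻¹, e] = a at k ⊢
  calc p * t * p⁻¹ * a = p * (t * (p⁻¹ * (a * p))) * p⁻¹ := by group
    _ = _ := by rw [k]; group

theorem h12 [Finite G] (f : Fr M x y e) (ht : Tt x y e t) (g : Gd M x y e t) (h11 : (y * ((y * x * (y⁻¹) * x * y * x * (y⁻¹) * x)⁻¹ * t * (y * x * (y⁻¹) * x * y * x * (y⁻¹) * x))) ^ 3 = 1) (he : (y * ((y * x) ^ 4 * y⁻¹ * x)⁻¹ * t * ((y * x) ^ 4 * y⁻¹ * x)) ^ 3 ∈ zpowers e) : (((y * x * y * x * y * x * y) ^ 3) * t * ((((x * y) ^ 3) * y * ((x * y) ^ 6) * y)⁻¹ * t * (((x * y) ^ 3) * y * ((x * y) ^ 6) * y))) ^ 2 = 1 := by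
  have m := f.toMd
  have s := f.s
  have tt := g.t2
  have a0 : wu0.g [x, y, y⁻¹, e] = (y * x) ^ 4 * y⁻¹ * x :=
    f.s.eq f.h wu0 (.m (.m (.p (.m (.v 1) (.v 0)) 4) (.v 2)) (.v 0)) (by decide +kernel)
  have a1 : wu1.g [x, y, y⁻¹, e] = y * x * (y⁻¹) * x * y * x * (y⁻¹) * x :=
    f.s.eq f.h wu1 (.m (.m (.m (.m (.m (.m (.m (.v 1) (.v 0)) (.v 2)) (.v 0)) (.v 1)) (.v 0)) (.v 2)) (.v 0)) (by decide +kernel)
  have a2 : wPi.g [x, y, y⁻¹, e] = (y * x * y * x * y * x * y) ^ 3 :=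
    f.s.eq f.h wPi (.p (.m (.m (.m (.m (.m (.m (.v 1) (.v 0)) (.v 1)) (.v 0)) (.v 1)) (.v 0)) (.v 1)) 3) (by decide +kernel)
  have a3 : wV.g [x, y, y⁻¹, e] = ((x * y) ^ 3) * y * ((x * y) ^ 6) * y :=
    f.s.eq f.h wV (.m (.m (.m (.p (.m (.v 0) (.v 1)) 3) (.v 1)) (.p (.m (.v 0) (.v 1)) 6)) (.v 1)) (by decide +kernel)
  rw [← a1] at h11
  rw [← a0, mul_assoc, mul_assoc y, ← mul_assoc _ t] at he
  rw [← a2, ← a3]
  have iu0 := iv m wu0 wU0 (by decide +kernel)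
  have iu1 := iv m wu1 wU1 (by decide +kernel)
  have ik := iv m wK4 wK4i (by decide +kernel)
  have ip := iv m wP5 wP5i (by decide +kernel)
  have iq := iv m wQ3 wQ3i (by decide +kernel)
  have ir := iv m wR4 wR4i (by decide +kernel)
  have ir' := iv m wR4i wR4 (by decide +kernel)
  have i0 := iv m wO wO (by decide +kernel)
  have iV := iv m wV wVi (by decide +kernel)
  have iV' := iv m wVi wV (by decide +kernel)
  have iπ := iv m wPi wPii (by decide +kernel)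
  have iB := iv m (.m wPii wVi) (.m wV wPi) (by decide +kernel)
  have iM := iv m wM wMi (by decide +kernel)
  have iD := iv m gD gDi (by decide +kernel)
  have ia := iv m wGa wGai (by decide +kernel)
  have ib := iv m wGb wGbi (by decide +kernel)
  have o : wO.g [x, y, y⁻¹, e] = 1 := rfl
  have LA := tri' m g wu1 wU1 gA wK4 wK4i wP5 wP5i wO wO dA0 dA1 dA2 h11 iu1 ik ip i0 (by decide +kernel) (by decide +kernel) (by decide +kernel)
  have LB := tri' m g wu1 wU1 gB wK4 wK4i (.m wPii wVi) (.m wV wPi) wVi wV dB0 dB1 dB2 h11 iu1 ik iB iV' (by decide +kernel) (by decide +kernel) (by decide +kernel)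
  have LC := tri' m g wu1 wU1 gC wK4 wK4i wQ3 wQ3i wR4i wR4 dC0 dC1 dC2 h11 iu1 ik iq ir' (by decide +kernel) (by decide +kernel) (by decide +kernel)
  have LD := tri' m g wu0 wU0 gD wR4 wR4i wQ3 wQ3i wO wO dD0 dD1 dD2 rfl iu0 ir iq i0 (by decide +kernel) (by decide +kernel) (by decide +kernel)
  have LE := tri' m g wu1 wU1 gE wGa wGai wGb wGbi wO wO dE0 dE1 dE2 h11 iu1 ia ib i0 (by decide +kernel) (by decide +kernel) (by decide +kernel)
  have m4 := cmc m g wK4 wK4i wM dM1 ik (by decide +kernel)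
  have a4 := cmc m g wK4 wK4i wGa dGa1 ik (by decide +kernel)
  have b4 := cmc m g wK4 wK4i wGb dGb1 ik (by decide +kernel)
  have a5 := cmc m g wVi wV wGa dGa2 iV' (by decide +kernel)
  have b5 := cmc m g wVi wV wGb dGb2 iV' (by decide +kernel)
  have mt := cm m g (.m wV wM) dM2 (by decide +kernel)
  have πt := cm m g wPi dPi (by decide +kernel)
  have wt := cm m g (.m (.m gD (.v 3)) gDi) dW (by decide +kernel)
  have w2 := f.s.eq f.h (.m (.m (.m gD (.v 3)) gDi) (.m (.m gD (.v 3)) gDi)) (.v 99) (by decide +kernel)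
  have r3 := f.s.eq f.h (.m wR4 wR4) wR4i (by decide +kernel)
  have rr := f.s.eq f.h wR4 (.m (.m wK4 wr) wK4i) (by decide +kernel)
  have Rw : M.R cW _ := s.lit f.h (.m (.m gD (.v 3)) gDi) (by decide +kernel)
  have Rw2 : M.R cW2 _ := s.lit f.h (.m (.m wM (.m (.m gD (.v 3)) gDi)) wMi) (by decide +kernel)
  have Rv : M.R cV _ := s.lit f.h wV (by decide +kernel)
  have Rvi : M.R cVi _ := s.lit f.h wVi (by decide +kernel)
  have Rs : M.R cS _ := s.lit f.h (.m wPi wPi) (by decide +kernel)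
  have R1 : M.R kone (1 : G) := s.2.1 ▸ M.R_one
  have R1' : M.R kone (1 : G)⁻¹ := by rw [inv_one]; exact R1
  obtain ⟨y0, Ry, -⟩ := acE s tt (acD m g) fY0
  rw [show fY0.c kmul kone DL = cY0 by decide +kernel] at Ry
  obtain ⟨R, N, X0, rN0, -⟩ := ht
  have X := X0.cj (wK4.g [x, y, y⁻¹, e])
  have eo : orderOf e = 2 := f.xe.elim fun _ h => h.elim fun _ h => h.1.o
  have ee3 : [x, y, y⁻¹, e].getD 3 1 = e := rfl
  have e9 : [x, y, y⁻¹, e].getD 99 1 = 1 := rfl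
  simp only [Ex.g, ik, ir, iV, iπ, iM, iD, o, ee3, e9, mul_one, one_mul, inv_one, mul_inv_cancel] at LA LB LC LD LE a5 b5 mt wt w2 r3 rr Rw Rw2 Rvi Rs
  have rN : wR4.g [x, y, y⁻¹, e] ∈ N.map (MulAut.conj (wK4.g [x, y, y⁻¹, e])).toMonoidHom := ⟨_, rN0, rr.symm⟩
  generalize wK4.g [x, y, y⁻¹, e] = k at *
  generalize wV.g [x, y, y⁻¹, e] = v at *
  generalize wPi.g [x, y, y⁻¹, e] = π at *
  generalize wR4.g [x, y, y⁻¹, e] = r at *
  generalize wM.g [x, y, y⁻¹, e] = μ at *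
  generalize gD.g [x, y, y⁻¹, e] = d at *
  have t44 := sqT tt k
  have t22 := sqT tt v⁻¹
  have c1 := (inv3 LA t44 (sqT tt _) tt).2
  obtain ⟨hb, c2⟩ := inv3 LB t44 (sqT tt _) t22
  rw [(inv3 LC t44 (sqT tt _) (sqT tt _)).1] at LD
  have mt' : μ * t * μ⁻¹ = v⁻¹ * t * v⁻¹⁻¹ := same (by rwa [inv_inv])
  have Rv' : M.R cV v⁻¹⁻¹ := (inv_inv v).symm ▸ Rv
  have y1 := stp m g Rvi Rv' Rv Rvi Ry fY1 (c' := cY1) (by decide +kernel)
  have y2 := stp m g R1 R1' R1 R1' y1 fY2 (c' := cY2) (by decide +kernel)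
  have y3 := stp m g Rvi Rv' Rv Rvi y2 fY3 (c' := cY3) (by decide +kernel)
  have y4 := stp m g R1 R1' R1 R1' y3 fY4 (c' := cY4) (by decide +kernel)
  have b1 := stp m g R1 R1' R1 R1' Rw2 e1 (c' := cBe) (by decide +kernel)
  have b2 : M.R cWb _ := (show kmul cW cBe = cWb by decide +kernel) ▸ rm s Rw b1
  have b3 := stp m g Rvi Rv' Rv Rvi b2 e2 (c' := cGa) (by decide +kernel)
  have b6 := stp m g R1 R1' R1 R1' b3 e3 (c' := cDe) (by decide +kernel)
  have b7 := M.unique ((show kmul cWb cDe = cS by decide +kernel) ▸ rm s b2 b6) Rs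
  have n1 := M.ne_of y4 Ry (by rw [s.2.2]; decide +kernel)
  have n2 := M.ne_of (rm s Rs y4) (rm s Ry Rs) (by rw [s.2.2]; decide +kernel)
  replace hb : v⁻¹ * t * v * π = π * (k * t * k⁻¹ * (v⁻¹ * t * v⁻¹⁻¹)) := by rw [← hb]; group
  simp only [inv_inv, mul_one, one_mul] at *
  generalize v⁻¹ * t * v = t2 at *
  have ti := inv_eq_of_mul_eq_one_right tt
  have ti2 := inv_eq_of_mul_eq_one_right t22
  have fin : π * π * (t * t2 * (t * t2)) = k * t * k⁻¹ → (π * t * t2) ^ 2 = 1 := fun h => by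
    have hb' := hb
    generalize k * t * k⁻¹ = t4 at *
    have c3 : Commute t4 (t * t2 * (t * t2)) := (c1.mul_right c2).mul_right (c1.mul_right c2)
    calc (π * t * t2) ^ 2 = π * t * (t2 * π) * t * t2 := by rw [sq]; group
      _ = π * (t * π) * t4 * t2 * t * t2 := by rw [hb']; group
      _ = π * π * (t * t4) * t2 * t * t2 := by rw [πt]; group
      _ = π * π * (t4 * (t * t2 * (t * t2))) := by rw [← c1.eq]; group
      _ = 1 := by rw [c3.eq, ← mul_assoc, h, t44]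
  have yy : t * (t2 * (t * (t2 * y0 * t2⁻¹) * t⁻¹) * t2⁻¹) * t⁻¹ = t * t2 * (t * t2) * y0 * (t * t2 * (t * t2))⁻¹ := by group
  rw [yy] at n1 n2
  rcases zp eo he with h | h
  · rw [h, mul_one, mul_inv_cancel] at LD
    obtain ⟨p1, p2⟩ := ab X rN r3 tt c1 (by rw [inv_inv]; exact LD) (mul_one 1) (Commute.one_left t) m4.symm.eq
    rw [mt', mul_one, mul_inv_cancel, one_mul] at p2
    rw [one_mul] at p1
    rcases zp X.o (X.sq _ (mul_mem p1 p2)) with k1 | k1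
    · exact absurd (by rw [k1]; group) n1
    · have := bil tt t22 t44 c1 a4 b4 a5 b5 LE k1
      have o2 := X.o
      rw [this, orderOf_one] at o2
      exact absurd o2 (by decide)
  · rw [h] at LD
    obtain ⟨p1, p2⟩ := ab X rN r3 tt c1 (by rw [inv_inv]; exact LD) w2 wt.symm m4.symm.eq
    rw [mt'] at p2
    have q := X.sq _ (mul_mem p1 p2)
    rw [show d * e * d⁻¹ * t * (μ * (d * e * d⁻¹) * μ⁻¹ * t2) * (d * e * d⁻¹ * t * (μ * (d * e * d⁻¹) * μ⁻¹ * t2)) =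
      π * π * (t * t2 * (t * t2)) by rw [← b7]; group] at q
    rcases zp X.o q with k1 | k1
    · exact absurd (by rw [eq_inv_of_mul_eq_one_right k1, inv_inv, mul_assoc (π * π)⁻¹, mul_inv_cancel_left]) n2
    · exact fin k1

end H13.H12
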