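import Cfsg.Agent.H13.H12a

/-! The last relation of the presentation of `J4`: abstract part. -/

set_option autoImplicit false
set_option linter.style.longLine false

namespace H13.H12
open Cfsg H29.U Subgroup

variable {G : Type*} [Group G]

theorem sqT {t : G} (tt : t * t = 1) (p : G) : p * t * p⁻¹ * (p * t * p⁻¹) = 1 := by
  calc _ = p * (t * t) * p⁻¹ := by group
    _ = 1 := by rw [tt]; group

theorem inv3 {a b c : G} (h : a * b * c = 1) (a2 : a * a = 1) (b2 : b * b = 1) (c2 : c * c = 1) :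
    b = a * c ∧ Commute a c := by
  have e : b = a * c := by
    calc b = a * a * b * (c * c) := by rw [a2, c2, one_mul, mul_one]
      _ = a * (a * b * c) * c := by group
      _ = _ := by rw [h, mul_one]
  refine ⟨e, ?_⟩
  rw [e] at b2
  calc a * c = a * c * (a * a) * (c * c) * 1 := by rw [a2, c2]; group
    _ = a * (c * a * a * c) * c := by group
    _ = a * (a * a) * (c * a) * (a * a) * (c * c) * (a * c * c) * 1 := by
      rw [a2, c2, mul_assoc c a a, a2, mul_assoc a c c, c2, mul_one, c2]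
      simp only [mul_one]
      calc a * c = a * c * (a * a) := by rw [a2, mul_one]
        _ = _ := by group
    _ = c * a := by
      rw [a2, c2, mul_assoc a c c, c2]
      simp only [mul_one]
      calc a * (c * a) * a = a * c * (a * a) := by group
        _ = (a * c)⁻¹ := by rw [a2, mul_one]; exact (eq_inv_of_mul_eq_one_right b2)
        _ = _ := by rw [mul_inv_rev, inv_eq_of_mul_eq_one_right a2, inv_eq_of_mul_eq_one_right c2]

theorem ab [Finite G] {t t4 r m ω : G} {R N : Subgroup G} (X : XS t4 R N) (rN : r ∈ N) (r3 : r * r = r⁻¹)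
    (tt : t * t = 1) (c1 : Commute t4 t) (H : r * t * r⁻¹ * (t4 * (r⁻¹ * t * r⁻¹⁻¹)) * t = ω) (ω2 : ω * ω = 1)
    (ωt : Commute ω t) (m4 : m * t4 = t4 * m) : ω * t ∈ R ∧ m * ω * m⁻¹ * (m * t * m⁻¹) ∈ R := by
  have cr : Commute t4 r := (mem_centralizer_singleton_iff.1 (X.NC rN)).symm
  have z2 : t4 ^ 2 = 1 := X.o ▸ pow_orderOf_eq_one t4
  have k2 : Commute t4 (r * t * r⁻¹) := (cr.mul_right c1).mul_right cr.inv_right
  have k3 : Commute t4 (r⁻¹ * t * r⁻¹⁻¹) := (cr.inv_right.mul_right c1).mul_right cr.inv_right.inv_right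
  have e1 : r * t * r⁻¹ * (r⁻¹ * t * r⁻¹⁻¹) * t4 = ω * t := by
    rw [← H, k3.eq, mul_assoc _ t t, tt, mul_one]; simp only [mul_assoc]
  have e2 : (r * t * r⁻¹ * (r⁻¹ * t * r⁻¹⁻¹)) ^ 2 = 1 := by
    have := congrArg (· ^ 2) e1
    rwa [(k2.mul_right k3).symm.mul_pow, ωt.mul_pow, z2, sq ω, sq t, ω2, tt, mul_one, mul_one] at this
  have e3 : r * t * r⁻¹ * (r⁻¹ * t * r⁻¹⁻¹) = r * (t * r * (t * r⁻¹)) * r⁻¹ := by
    have i : r⁻¹ * r⁻¹ = r := by
      calc r⁻¹ * r⁻¹ = r⁻¹ * (r * r) := by rw [r3]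
        _ = r := by group
    calc _ = r * t * (r⁻¹ * r⁻¹) * t * r := by group
      _ = r * t * r * t * (r⁻¹ * r⁻¹) := by rw [i]
      _ = _ := by group
  rw [e3] at e1 e2
  rw [conj_pow, mul_inv_eq_one, mul_eq_left] at e2
  have pR := H19.Qs.mem_R X.RN X.NC X.nR X.nN X.cR X.cN rN (mem_centralizer_singleton_iff.2 c1.symm.eq) tt
    (mul_inv_cancel r) (by rw [show 4 = 2 * 2 from rfl, pow_mul, e2, one_pow])
  have a : ω * t ∈ R := e1 ▸ mul_mem ((mem_normalizer_iff.1 (X.nR (X.NC rN)) _).1 pR) X.zR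
  refine ⟨a, ?_⟩
  have := (mem_normalizer_iff.1 (X.nR (mem_centralizer_singleton_iff.2 m4)) _).1 a
  convert this using 1; group

theorem zp {z g : G} (o : orderOf z = 2) (h : g ∈ zpowers z) : g = 1 ∨ g = z := by
  obtain ⟨n, rfl⟩ := h
  have z2 : z ^ (2 : ℤ) = 1 := by rw [zpow_ofNat, ← o, pow_orderOf_eq_one]
  rcases Int.even_or_odd' n with ⟨k, rfl | rfl⟩
  · left; simp only [zpow_mul, z2, one_zpow]
  · right; simp only [zpow_add, zpow_mul, z2, one_zpow, one_mul, zpow_one]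

theorem bil {t t2 t4 a b : G} (tt : t * t = 1) (t22 : t2 * t2 = 1) (t44 : t4 * t4 = 1) (c1 : Commute t4 t)
    (a4 : Commute t4 a) (b4 : Commute t4 b) (a2 : Commute t2 a) (b2 : Commute t2 b)
    (L : a * t * a⁻¹ * (b * t * b⁻¹) * t = 1) (h : t * t2 * (t * t2) = t4) : t4 = 1 := by
  have e : t2 * t * t2 = t * t4 := by rw [← h, ← mul_assoc, ← mul_assoc, ← mul_assoc, tt, one_mul]
  have k : ∀ g, Commute t4 g → Commute t2 g → t2 * (g * t * g⁻¹) * t2 = g * t * g⁻¹ * t4 := fun g g4 g2 => by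
    calc _ = t2 * g * t * (g⁻¹ * t2) := by group
      _ = g * (t2 * t * t2) * g⁻¹ := by rw [g2.eq, ← g2.inv_right.eq]; group
      _ = g * t * (t4 * g⁻¹) := by rw [e]; group
      _ = _ := by rw [g4.inv_right.eq]; group
  have cb : Commute t4 (b * t * b⁻¹) := (b4.mul_right c1).mul_right b4.inv_right
  have l : a * t * a⁻¹ * (b * t * b⁻¹) = t := by
    rw [eq_inv_of_mul_eq_one_left L, inv_eq_of_mul_eq_one_right tt]
  have : t * t4 = t := by
    calc t * t4 = t2 * (a * t * a⁻¹ * (b * t * b⁻¹)) * t2 := by rw [l, e]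
      _ = t2 * (a * t * a⁻¹) * (t2 * t2) * (b * t * b⁻¹) * t2 := by rw [t22]; group
      _ = t2 * (a * t * a⁻¹) * t2 * (t2 * (b * t * b⁻¹) * t2) := by group
      _ = a * t * a⁻¹ * (t4 * (b * t * b⁻¹)) * t4 := by rw [k a a4 a2, k b b4 b2]; group
      _ = a * t * a⁻¹ * (b * t * b⁻¹) * (t4 * t4) := by rw [cb.eq]; group
      _ = t := by rw [t44, mul_one, l]
  exact mul_eq_left.1 this

end H13.H12
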