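import Cfsg.Agent.H13.J57
/-! Singular planes fixed by an involution of `3.M22`. -/
set_option autoImplicit false
namespace H13
noncomputable section
open MulAction Cfsg H27 Subgroup H22
open scoped Pointwise
theorem ex_nm {α σ : Type*} [SetLike σ α] {S : σ} (l : List α) (h : l.length < Nat.card S) : ∃ x ∈ S, x ∉ l := by
  classical
  by_contra! a
  have := Set.ncard_le_ncard (s := (S : Set α)) (t := l.toFinset) fun x b => by simpa using a x b
  rw [Set.ncard_coe_finset] at this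
  exact absurd (this.trans l.toFinset_card_le) (not_le.2 h)
def Yc (c : GF4) : AddSubgroup V6 where
  carrier := {v | v 0 = c * v 1 ∧ v 2 = v 3 ∧ v 4 = v 5}
  zero_mem' := ⟨(mul_zero c).symm, rfl, rfl⟩
  add_mem' a b := ⟨(congrArg₂ (· + ·) a.1 b.1).trans (mul_add ..).symm, congrArg₂ (· + ·) a.2.1 b.2.1, congrArg₂ (· + ·) a.2.2 b.2.2⟩
  neg_mem' a := ⟨(congrArg (-·) a.1).trans (mul_neg ..).symm, congrArg (-·) a.2.1, congrArg (-·) a.2.2⟩
instance decYc (c : GF4) (v : V6) : Decidable (v ∈ Yc c) := inferInstanceAs (Decidable (_ ∧ _ ∧ _))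
theorem Yc_one : Yc 1 = U6s := AddSubgroup.ext fun _ => and_congr_left' (by rw [one_mul])
theorem Yc_pol {c : GF4} (n : c ≠ 0) {u v : V6} (a : u ∈ Yc c) (b : v ∈ Yc c) : pol q6 u v = 0 := by
  have k : ∀ {u}, u ∈ Yc c → q6 u = 0 := fun {u} h => by
    rw [q6, Fin.sum_univ_six, h.1, h.2.1, h.2.2, (by decide : ∀ c a : GF4, c ≠ 0 → nm4 (c * a) = nm4 a) c _ n, z2_two, zero_add, z2_two,
      zero_add, z2_two]
  rw [pol, k a, k b, k (add_mem a b)]; rfl
theorem card_Yc (c : GF4) : Nat.card (Yc c) = 64 := (Nat.card_eq_of_bijective (fun t : GF4 × GF4 × GF4 =>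
  (⟨![c * t.1, t.1, t.2.1, t.2.1, t.2.2, t.2.2], rfl, rfl, rfl⟩ : Yc c)) ⟨fun _ _ e => Prod.ext (congrArg (·.1 1) e)
    (Prod.ext (congrArg (·.1 2) e) (congrArg (·.1 4) e)), fun v => ⟨(v.1 1, v.1 3, v.1 5), Subtype.ext (funext fun i => by
      fin_cases i; exacts [v.2.1.symm, rfl, v.2.2.1.symm, rfl, v.2.2.2.symm, rfl])⟩⟩).symm.trans Nat.card_eq_fintype_card
theorem bb1_fx {v : V6} : v ∈ fx bb1 ↔ v 2 = v 3 ∧ v 4 = v 5 := by
  obtain ⟨i, b, rfl⟩ := E6.surj v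
  exact ((Eq.congr_left (bb1_c i b)).trans (E6.eq_iff (xsum_lt (by decide) _) b)).trans (of_decide_eq_true ((allN_iff _ _).1
    (by decide +kernel : (allN 4096 fun i => decide (xsum cbb1 i = i ↔ v6 i 2 = v6 i 3 ∧ v6 i 4 = v6 i 5)) = true) i b))
theorem planes {K S : AddSubgroup V6} (hK : ∀ t : GF4, ∀ v ∈ K, t • v ∈ K) (a : S ≤ K) (b : S ≤ fx bb1) (q : ∀ v ∈ S, q6 v = 0)
    (c : 32 ≤ Nat.card S) (n : ¬ fx bb1 ≤ K) : ∃ c ≠ 0, Yc c ≤ K ∧ S ≤ Yc c := by
  have := E6.finite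
  let φ : S →+ GF4 × GF4 := AddMonoidHom.mk' (fun v => (v.1 0, v.1 1)) fun _ _ => rfl
  have sg : ∀ x ∈ φ.range, nm4 x.1 = nm4 x.2 := by
    rintro _ ⟨v, rfl⟩
    have := q v v.2
    rw [q6, Fin.sum_univ_six, (bb1_fx.1 (b v.2)).1, (bb1_fx.1 (b v.2)).2, add_assoc, z2_two, add_zero, add_assoc, z2_two, add_zero] at this
    exact (by decide : ∀ a b : ZMod 2, a + b = 0 → a = b) _ _ this
  have c1 : Nat.card φ.range ≤ 4 := not_lt.1 fun e => by
    obtain ⟨x, x1, x2⟩ := ex_nm (S := φ.range) [0] (lt_trans (show 1 < 4 by norm_num) e)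
    obtain ⟨y, y1, y2⟩ := ex_nm (S := φ.range) [0, x] (lt_trans (show 2 < 4 by norm_num) e)
    obtain ⟨w, w1, w2⟩ := ex_nm (S := φ.range) [0, x, y, x + y] e
    exact (by decide +kernel : ∀ x y w : GF4 × GF4, x ∉ [0] → y ∉ [0, x] → w ∉ [0, x, y, x + y] →
      ¬ ∀ v ∈ [x, y, w, x + y, x + w, y + w, x + y + w], nm4 v.1 = nm4 v.2) x y w x2 y2 w2 fun v i => sg v (by
        simp only [List.mem_cons, List.not_mem_nil, or_false] at i
        rcases i with rfl | rfl | rfl | rfl | rfl | rfl | rfl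
        exacts [x1, y1, w1, add_mem x1 y1, add_mem x1 w1, add_mem y1 w1, add_mem (add_mem x1 y1) w1])
  have c2 := φ.ker.card_mul_index
  rw [AddSubgroup.index_ker] at c2
  have ex : ∀ {u w : V6}, (∀ i ∈ [0, 1, 2, 4], u i = w i) → u ∈ fx bb1 → w ∈ fx bb1 → u = w := fun e f g => funext fun i => by
    fin_cases i
    exacts [e _ (by simp), e _ (by simp), e _ (by simp), (bb1_fx.1 f).1.symm.trans ((e _ (by simp)).trans (bb1_fx.1 g).1), e _ (by simp),
      (bb1_fx.1 f).2.symm.trans ((e _ (by simp)).trans (bb1_fx.1 g).2)]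
  have sm : ∀ t : GF4, ∀ v ∈ fx bb1, t • v ∈ fx bb1 := fun t v e =>
    bb1_fx.2 ⟨congrArg (t * ·) (bb1_fx.1 e).1, congrArg (t * ·) (bb1_fx.1 e).2⟩
  have r : ∀ w ∈ fx bb1, w 0 = 0 → w 1 = 0 → w ∈ K := fun w w1 w2 w3 => by
    have e : 4 < Nat.card (φ.ker.map S.subtype) := by rw [AddSubgroup.card_map_of_injective S.subtype_injective]; nlinarith
    obtain ⟨_, ⟨u, u1, rfl⟩, u2⟩ := ex_nm (S := φ.ker.map S.subtype) [0] (lt_trans (show 1 < 4 by norm_num) e)
    obtain ⟨_, ⟨v, v1, rfl⟩, v2⟩ := ex_nm (S := φ.ker.map S.subtype) ([0, 1, th, th * th].map (· • u.1)) e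
    obtain ⟨u3, u4⟩ := Prod.ext_iff.1 u1
    obtain ⟨v3, v4⟩ := Prod.ext_iff.1 v1
    obtain ⟨s, t, e1, e2⟩ := (by decide +kernel : ∀ a b c d : GF4, ¬ (a = 0 ∧ b = 0) → (∀ t ∈ [0, 1, th, th * th], ¬ (c = t * a ∧ d = t * b)) →
      ∀ e f, ∃ s t, e = s * a + t * c ∧ f = s * b + t * d) (u.1 2) (u.1 4) (v.1 2) (v.1 4)
        (fun e => u2 (List.mem_singleton.2 (ex (by simpa using ⟨u3, u4, e⟩) (b u.2) (zero_mem _))))
        (fun t i e => v2 (List.mem_map.2 ⟨t, i, (ex (by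
          simpa using ⟨v3.trans (by simp [show u.1 0 = 0 from u3]), v4.trans (by simp [show u.1 1 = 0 from u4]), e⟩) (b v.2) (sm t _ (b u.2))).symm⟩))
        (w 2) (w 4)
    rw [ex (w := s • u.1 + t • v.1) (by
      simpa [show u.1 0 = 0 from u3, show u.1 1 = 0 from u4, show v.1 0 = 0 from v3, show v.1 1 = 0 from v4] using ⟨w2, w3, e1, e2⟩)
        w1 (add_mem (sm _ _ (b u.2)) (sm _ _ (b v.2)))]
    exact add_mem (hK _ _ (a u.2)) (hK _ _ (a v.2))
  obtain ⟨u, u1⟩ : ∃ u, u ∉ φ.ker := not_forall.1 fun e => by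
    have := Nat.card_le_card_of_injective (fun u : S => (u.1 2, u.1 4)) fun u v i => Subtype.ext (ex (by
      obtain ⟨i1, i2⟩ := Prod.ext_iff.1 ((e u).trans (e v).symm)
      simpa using ⟨i1, i2, Prod.ext_iff.1 i⟩) (b u.2) (b v.2))
    rw [Nat.card_eq_fintype_card (α := GF4 × GF4), show Fintype.card (GF4 × GF4) = 16 from rfl] at this
    omega
  obtain ⟨c, c0, c3, c4⟩ := (by decide : ∀ a b : GF4, nm4 a = nm4 b → (a, b) ≠ 0 → ∃ c ≠ 0, a = c * b ∧ ∀ x, ∃ t, x + t * b = 0) _ _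
    (sg _ ⟨u, rfl⟩) u1
  have y : Yc c ≤ K := fun w i => by
    obtain ⟨t, e⟩ := c4 (w 1)
    exact (K.add_mem_cancel_right (hK t _ (a u.2))).1 (r _ (add_mem (bb1_fx.2 i.2) (sm t _ (b u.2)))
      (show w 0 + t * u.1 0 = 0 by rw [i.1, show u.1 0 = _ from c3, mul_left_comm, ← mul_add]; exact (congrArg (c * ·) e).trans (mul_zero c)) e)
  refine ⟨c, c0, y, fun v i => by_contra fun j => n fun w l => ?_⟩
  obtain ⟨t, e⟩ := (by decide : ∀ c a b x y : GF4, a ≠ c * b → ∃ t, x + t * a = c * (y + t * b)) c (v 0) (v 1) (w 0) (w 1)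
    fun e => j ⟨e, bb1_fx.1 (b i)⟩
  exact (K.add_mem_cancel_right (hK t _ (a i))).1 (y ⟨e, bb1_fx.1 (add_mem l (sm t _ (b i)))⟩)
theorem semiK {K S : AddSubgroup V6} (hK : ∀ t : GF4, ∀ v ∈ K, t • v ∈ K) (a : S ≤ K) (b : S ≤ fx bb1) {s : AL V6} (l : s ∈ LJ) (n : s ∉ MJ)
    (d : S ≤ fx s) (c : 16 ≤ Nat.card S) : fx bb1 ≤ K := fun w i => by
  have := E6.finite
  have sm : ∀ v ∈ fx bb1, thL v ∈ fx bb1 := fun v e => bb1_fx.2 ⟨congrArg (th * ·) (bb1_fx.1 e).1, congrArg (th * ·) (bb1_fx.1 e).2⟩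
  let φ : S × S →+ fx bb1 := AddMonoidHom.mk' (fun v => ⟨v.1 + thL v.2, add_mem (b v.1.2) (sm _ (b v.2.2))⟩) fun u v =>
    Subtype.ext (by simp only [Prod.fst_add, Prod.snd_add, AddSubgroup.coe_add, map_add]; abel)
  have j : Function.Injective φ := (injective_iff_map_eq_zero φ).2 fun v e => by
    have e1 : v.1.1 + thL v.2 = 0 := congrArg Subtype.val e
    have e2 := congrArg s e1
    rw [map_add, LJ_semi l n, d v.1.2, d v.2.2, map_zero, ← e1, add_right_inj, thL.injective.eq_iff] at e2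
    have e3 : v.2.1 = 0 := funext fun i => (by decide : ∀ a : GF4, th * a = a → a = 0) _ (congrFun e2 i)
    rw [e3, map_zero, add_zero] at e1
    exact Prod.ext (Subtype.ext e1) (Subtype.ext e3)
  obtain ⟨v, e⟩ := (j.bijective_of_nat_card_le ((fix_card (mem_cl (by simp [gB6])) B06_ne.1).trans (by
    rw [Nat.card_prod]; exact Nat.mul_le_mul c c))).2 ⟨w, i⟩
  exact Set.mem_of_eq_of_mem (congrArg Subtype.val e).symm (add_mem (a v.1.2) (hK th _ (a v.2.2)))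
theorem fixC {g : AL V6} (a : g ∈ LJ) (b : ∀ v ∈ fx bb1, g v = v) : g = 1 ∨ g = bb1 := by
  have := E6.finite
  have c : Nat.card ↥(LJ ⊓ fixS (AL V6) ([80, 160, 1280, 2560, 5, 10, 6, 11].map v6)) ≤ 2 := E6.lin_bound (F := [80, 160, 1280, 2560, 5, 10, 6, 11])
    (H := LJ ⊓ fixS (AL V6) ([80, 160, 1280, 2560, 5, 10, 6, 11].map v6)) [2560, 3840, 2816, 3328, 8, 4, 24, 36, 2, 1, 66, 129]
        [(16, 2, [(0, 6, true), (0, 7, true), (0, 84, true), (0, 79, true)]), (32, 1, [(0, 18, true), (0, 22, true), (0, 43, true), (0, 29, true)]), (256, 1, [(0, 39, true), (0, 40, true), (0, 129, true), (0, 334, true)]), (512, 1, [(0, 41, true), (0, 43, true), (0, 664, true), (0, 59, true)])]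
    (qinvJ inf_le_left) (fun b a => ⟨by revert b; decide, fun g c => c.2 _ (List.mem_map_of_mem a)⟩) (by decide +kernel)
  have k : ∀ x ∈ [80, 160, 1280, 2560, 5, 10, 6, 11].map v6, x ∈ fx bb1 := List.forall_mem_map.2 fun i m => bb1_fx.2 (by revert i; decide +kernel)
  have m : bb1 ∈ B06 := mem_cl (by simp [gB6])
  have o : orderOf bb1 = 2 := orderOf_eq_prime (B06_sq _ m) B06_ne.1
  exact (mem_zpowers_two o).1 ((eq_of_le_of_card_ge (zpowers_le.2 (show bb1 ∈ LJ ⊓ fixS (AL V6) _ from ⟨MJ_LJ (B_MJ m), k⟩))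
    (by rwa [Nat.card_zpowers, o])).ge ⟨a, fun x i => b x (k x i)⟩)
theorem fixY {c : GF4} (n : c = th ∨ c = th * th) {F : Subgroup (AL V6)} (a : F ≤ LJ) (b : ∀ g ∈ F, ∀ v ∈ Yc c, g v = v) : Nat.card F ≤ 8 := by
  rcases n with rfl | rfl
  · exact E6.lin_bound (F := [80, 160, 1280, 2560, 6, 11]) (H := F) [32, 16, 1040, 2096, 8, 4, 72, 132, 2, 1, 258, 513]
        [(1, 4, [(0, 19, true), (0, 33, true), (0, 34, true), (0, 14, false)]), (2, 1, [(0, 35, true), (0, 37, true), (0, 101, true), (0, 66, true)]), (16, 2, [(0, 19, true), (0, 23, true), (0, 24, true), (0, 49, true)]), (32, 1, [(0, 34, true), (0, 38, true), (0, 72, true), (0, 105, true)]), (256, 1, [(0, 21, true), (0, 24, true), (0, 259, true), (0, 28, true)]), (512, 1, [(0, 42, true), (0, 46, true), (0, 314, true), (0, 93, true)])]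
      (qinvJ a) (fun i m => ⟨by revert i; decide, fun g c => b g c _ (by clear c; revert i; decide +kernel)⟩) (by decide +kernel)
  · exact E6.lin_bound (F := [80, 160, 1280, 2560, 9, 14]) (H := F) [32, 16, 3120, 1056, 8, 4, 72, 132, 2, 1, 258, 513]
        [(1, 4, [(0, 33, true), (0, 34, true), (0, 49, true), (0, 6, false)]), (2, 1, [(0, 35, true), (0, 36, true), (0, 93, true), (0, 39, true)]), (16, 2, [(0, 19, true), (0, 23, true), (0, 24, true), (0, 49, true)]), (32, 1, [(0, 34, true), (0, 38, true), (0, 72, true), (0, 105, true)]), (256, 1, [(0, 21, true), (0, 24, true), (0, 314, true), (0, 62, true)]), (512, 1, [(0, 42, true), (0, 46, true), (0, 314, true), (0, 93, true)])]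
      (qinvJ a) (fun i m => ⟨by revert i; decide, fun g c => b g c _ (by clear c; revert i; decide +kernel)⟩) (by decide +kernel)
theorem swapY : ∃ m ∈ LJ, ∀ v ∈ Yc th, m v ∈ Yc (th * th) := by
  have c : nelChk [0x8, 0x1004, 0x2002, 0x3001, 0x4027, 0x5015, 0x6138, 0x7214, 0x805a, 0x91a1, 0xaacb, 0xb781, 0x9800, 0x8e00, 0x7900, 0x6700, 0x5c80, 0x4840, 0x3aa0, 0x2ff8, 0x10ac, 0xf0a] = true := by decide +kernel
  have d := nel_c c
  rw [show lcol _ = [2728, 4092, 1522, 2643, 262, 523, 1030, 2059, 2766, 3911, 2622, 3863] by decide +kernel] at d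
  exact ⟨_, lj_of (nel_a c) (by decide +kernel), all6 fun i b e => Set.mem_of_eq_of_mem (d i b) (of_decide_eq_true ((allN_iff _ _).1 (by decide +kernel : (allN 4096 fun i =>
      decide (v6 i ∈ Yc th → v6 (xsum [2728, 4092, 1522, 2643, 262, 523, 1030, 2059, 2766, 3911, 2622, 3863] i) ∈ Yc (th * th))) = true) i b) e)⟩
theorem ab16M {S : Subgroup (AL V6)} (hS : S ≤ MJ) (p : IsPGroup 2 S) (h : ∀ x ∈ S, ∀ y ∈ S, x * y = y * x) : Nat.card S ≤ 16 := by
  have := E6.finite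
  obtain ⟨k, -, a⟩ := exists_conj_le_sylow Nat.prime_two TJ_MJ card_TJ (by rw [card_MJ]; norm_num) hS p
  have := ab16 (S := S.map (MulAut.conj k).toMonoidHom) (by rintro _ ⟨x, b, rfl⟩; exact a x b) (by
    rintro _ ⟨x, b, rfl⟩ _ ⟨y, c, rfl⟩
    rw [← map_mul, ← map_mul, h x b y c])
  rwa [card_map_of_injective (MulAut.conj k).injective] at this
end
end H13
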