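import Cfsg.Agent.H13.XS
import Cfsg.Agent.H13.LMod
/-! Groups of Monster type: the conjugates of `z` in `Q`. -/
set_option autoImplicit false
namespace H13
noncomputable section
open Cfsg Subgroup H27 MulAction
open scoped Pointwise

variable {G : Type*} [Group G]

/-- the natural map `Co0 → Co1` -/
abbrev mk1 : CC →* Spor.Co1 := QuotientGroup.mk' (Subgroup.center CC)
theorem mk1_surj : Function.Surjective mk1 := QuotientGroup.mk'_surjective _
theorem mk1_eq {g k : CC} : mk1 g = mk1 k ↔ g = k ∨ g = neg1 * k := mk_eq_iff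
theorem mk1_neg1 : mk1 neg1 = 1 := (QuotientGroup.eq_one_iff _).2 neg1_center
theorem mk1_eq_one {g : CC} : mk1 g = 1 ↔ g = 1 ∨ g = neg1 := (QuotientGroup.eq_one_iff _).trans mem_center_iff
theorem card_Co1' : Nat.card Spor.Co1 = 4157776806543360000 := card_Co1
instance : Finite Spor.Co1 := Nat.finite_of_card_ne_zero (by rw [card_Co1']; norm_num)
theorem cg_of_mk1 {g k : CC} (h : mk1 g = mk1 k) (v : LL) : Cg (g • v) (k • v) := by
  rcases mk1_eq.1 h with rfl | rfl
  · exact Cg.refl _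
  · rw [mul_smul, neg1_smul]; exact cg_neg _

/-- Monster type in coordinates: `P v x` says that `x ∈ R` has image `v` in the lattice modulo two -/
structure MT (z : G) (R : Subgroup G) (π : Cz z →* Spor.Co1) (P : LL → G → Prop) : Prop extends XS z R 12 where
  ker : ∀ h : Cz z, π h = 1 ↔ (h : G) ∈ R
  surj : Function.Surjective π
  mem : ∀ {v x}, P v x → x ∈ R
  ex : ∀ v, ∃ x, P v x
  ex' : ∀ x ∈ R, ∃ v, P v x
  mul : ∀ {v w x y}, P v x → P w y → P (v + w) (x * y)
  zero : P 0 1 ∧ P 0 z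
  iff : ∀ {v x}, P v x → (x = 1 ∨ x = z ↔ Cg v 0)
  act : ∀ {h : Cz z} {g : CC} {v x}, π h = mk1 g → P v x → P (g • v) (h * x * h⁻¹)
  nwc : ∃ g : G, g * z * g⁻¹ ∈ R ∧ g * z * g⁻¹ ≠ z

theorem mt_of [Finite G] {z : G} {Q : Subgroup (Cz z)} [hQ : Q.Normal] (h : IsExtraspecialCentralizerSetting z Q 12)
    {e : Cz z ⧸ Q ≃* Spor.Co1} {ψ : LL → Q ⧸ Subgroup.center Q} (hψ : IsLeechModTwoIso Q e ψ) :
    MT z (Q.map (Cz z).subtype) (e.toMonoidHom.comp (QuotientGroup.mk' Q))
      (fun v x => ∃ q : Q, ((q : Cz z) : G) = x ∧ ψ v = QuotientGroup.mk q) := by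
  have X := xs_of_setting h
  obtain ⟨a, b, c, d⟩ := hψ
  have cen : ∀ q : Q, q ∈ Subgroup.center Q ↔ ((q : Cz z) : G) = 1 ∨ ((q : Cz z) : G) = z := fun q => by
    rw [← X.mem_cen, Subgroup.mem_center_iff]
    refine ⟨fun u => ⟨⟨_, q.2, rfl⟩, ?_⟩, fun u r => Subtype.ext (Subtype.ext (u.2 _ ⟨_, r.2, rfl⟩))⟩
    rintro _ ⟨r, hr, rfl⟩
    exact congrArg (fun t : Q => ((t : Cz z) : G)) (u ⟨r, hr⟩)
  have h0 : ψ 0 = 1 := (c 0).2 ⟨0, by simp⟩
  refine { X with
    ker := fun k => ?_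
    surj := e.surjective.comp (QuotientGroup.mk'_surjective Q)
    mem := by rintro v _ ⟨q, rfl, -⟩; exact ⟨_, q.2, rfl⟩
    ex := fun v => by obtain ⟨q, hq⟩ := QuotientGroup.mk_surjective (ψ v); exact ⟨_, q, rfl, hq.symm⟩
    ex' := by rintro _ ⟨x, hx, rfl⟩; obtain ⟨v, hv⟩ := b (QuotientGroup.mk ⟨x, hx⟩); exact ⟨v, _, rfl, hv⟩
    mul := by rintro v w _ _ ⟨q, rfl, u⟩ ⟨r, rfl, t⟩; exact ⟨q * r, rfl, by rw [a, u, t]; rfl⟩
    zero := ⟨⟨1, rfl, h0⟩, ?_⟩
    iff := by rintro v _ ⟨q, rfl, u⟩; rw [← cen, cg_zero_iff, ← c, u, QuotientGroup.eq_one_iff]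
    act := by rintro k g v _ u ⟨q, rfl, t⟩; exact ⟨_, rfl, d k g u.symm v q t⟩
    nwc := ?_ }
  · rw [mem_map_Cz]
    simp
  · obtain ⟨hz, u⟩ := mem_map_Cz.1 X.zm
    exact ⟨⟨_, u⟩, rfl, by rw [h0, eq_comm, QuotientGroup.eq_one_iff, cen]; exact Or.inr rfl⟩
  · obtain ⟨g, u, t⟩ := h.2.2.2.2
    exact ⟨g, mem_map_Cz.2 u, t⟩

namespace MT
variable {z : G} {R : Subgroup G} {π : Cz z →* Spor.Co1} {P : LL → G → Prop} (h : MT z R π P)
include h

theorem twist (k : CC) :
    MT z R ((MulAut.conj (mk1 k)⁻¹).toMonoidHom.comp π) fun v x => P (k • v) x :=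
  { h.toXS with
    ker := fun g => by rw [← h.ker]; exact map_eq_one_iff _ (MulAut.conj (mk1 k)⁻¹).injective
    surj := (MulAut.conj (mk1 k)⁻¹).surjective.comp h.surj
    mem := h.mem
    ex := fun v => h.ex _
    ex' := fun x hx => by obtain ⟨v, a⟩ := h.ex' x hx; exact ⟨k⁻¹ • v, by simpa using a⟩
    mul := fun a b => by simpa [smul_add] using h.mul a b
    zero := by simpa using h.zero
    iff := fun {v x} a => by rw [h.iff a, ← cg_smul_iff k (v := v), smul_zero]
    act := fun {g k' v x} a b => by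
      have := h.act (h := g) (g := k * k' * k⁻¹) (by
        rw [map_mul, map_mul, ← a]; simp [mul_assoc]) b
      simpa [mul_smul] using this
    nwc := h.nwc }

theorem lift (g : CC) : ∃ k : Cz z, π k = mk1 g := h.surj _
omit h in
theorem exists_g (k : Cz z) : ∃ g : CC, π k = mk1 g := by obtain ⟨g, a⟩ := mk1_surj (π k); exact ⟨g, a.symm⟩
theorem mulz {v : LL} {x : G} (a : P v x) : P v (x * z) := by simpa using h.mul a h.zero.2

variable [Finite G]
theorem inv {v : LL} {x : G} (a : P v x) : P v x⁻¹ := by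
  rcases h.toXS.inv (h.mem a) with b | b <;> rw [b]
  exacts [a, h.mulz a]
theorem uniq {v w : LL} {x y : G} (a : P v x) (b : P w y) : y = x ∨ y = x * z ↔ Cg v w := by
  rw [cg_iff_add, ← h.iff (h.mul (h.inv a) b), inv_mul_eq_one, inv_mul_eq_iff_eq_mul, eq_comm]
theorem congr {v w : LL} {x : G} (a : P v x) (b : Cg v w) : P w x := by
  obtain ⟨y, c⟩ := h.ex w
  rcases (h.uniq c a).2 b.symm with rfl | rfl
  exacts [c, h.mulz c]

open Classical in
theorem quad : ∃ q : G → ZMod 2, ∃ b : G → G → ZMod 2, (∀ x, q x = 0 ↔ x * x = 1) ∧ (∀ x y, b x y = 0 ↔ x * y = y * x) ∧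
    (∀ x ∈ R, ∀ y ∈ R, q (x * y) = q x + q y + b x y) ∧ ∀ x ∈ R, ∀ y ∈ R, ∀ u ∈ R, b (x * y) u = b x u + b y u := by
  refine ⟨fun x => if x * x = 1 then 0 else 1, fun x y => if x * y = y * x then 0 else 1, fun x => by simp,
    fun x y => by simp, fun x hx y hy => ?_, fun x hx y hy u hu => ?_⟩
  · have e : x * y * (x * y) = x * (y * x) * y := by group
    have zz := h.zz
    have z1 := h.z_ne
    rcases h.com hy hx with a | a
    · rw [a, show x * (x * y) * y = x * x * (y * y) by group] at e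
      rcases h.sq hx with b | b <;> rcases h.sq hy with c | c <;> simp [e, a, b, c, zz, z1] <;> rfl
    · have a' : x * y ≠ y * x := fun t => h.ne_mul (x * y) (a.symm.trans t.symm)
      rw [a, show x * (x * y * z) * y = x * x * (y * (z * y)) by group, ← h.comm hy, ← mul_assoc y] at e
      rcases h.sq hx with b | b <;> rcases h.sq hy with c | c <;> simp [e, a', b, c, zz, z1] <;> rfl
  · have n := h.ne_mul
    rcases h.com hx hu with a | a <;> rcases h.com hy hu with b | b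
    · have : x * y * u = u * (x * y) := by rw [mul_assoc, b, ← mul_assoc, a, mul_assoc]
      simp [this, a, b]
    · have : x * y * u = u * (x * y) * z := by rw [mul_assoc, b, ← mul_assoc, ← mul_assoc, a]; group
      simp [this, a, b, h.z_ne]
    · have : x * y * u = u * (x * y) * z := by
        rw [mul_assoc, b, ← mul_assoc, a, mul_assoc _ z, ← h.comm hy]; group
      simp [this, a, b, h.z_ne]
    · have : x * y * u = u * (x * y) := by
        rw [mul_assoc, b, ← mul_assoc, ← mul_assoc, a, mul_assoc _ z, ← h.comm hy, mul_assoc, mul_assoc y, h.zz]; group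
      simp [this, a, b, h.z_ne]; rfl

theorem sq_mulz {x : G} (hx : x ∈ R) : x * z * (x * z) = x * x := by
  rw [mul_assoc, ← mul_assoc z, ← h.comm hx, mul_assoc x z, h.zz, mul_one]
theorem sq_conj (k x : G) : k * x * k⁻¹ * (k * x * k⁻¹) = 1 ↔ x * x = 1 := by
  rw [show k * x * k⁻¹ * (k * x * k⁻¹) = k * (x * x) * k⁻¹ by group, conj_eq_one_iff]

theorem sq_iff {v : LL} {x : G} (a : P v x) : x * x = 1 ↔ 32 ∣ nm v := by
  obtain ⟨q, b, hq, hb, h1, h2⟩ := h.quad
  choose σ hσ using h.ex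
  have z2 : ∀ s t : ZMod 2, (s = 0 ↔ t = 0) → s = t := by decide
  have key : ∀ {v x}, P v x → q (σ v) = q x := fun {v x} a => z2 _ _ (by
    rcases (h.uniq a (hσ v)).2 (Cg.refl _) with c | c <;> rw [c]
    rw [hq, hq, h.sq_mulz (h.mem a)])
  rw [← hq, ← key a]
  refine quad_unique (fun v => q (σ v)) (fun v w => key (h.congr (hσ v) (Cg.symm ⟨w, rfl⟩))) (fun u v w => ?_)
    (fun g v => ?_) ?_ v
  · have m := fun v => h.mem (hσ v)
    rw [key (h.mul (h.mul (hσ u) (hσ v)) (hσ w)), key (h.mul (hσ u) (hσ v)), key (h.mul (hσ u) (hσ w)),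
      key (h.mul (hσ v) (hσ w)), h1 _ (mul_mem (m u) (m v)) _ (m w), h1 _ (m u) _ (m v), h1 _ (m u) _ (m w),
      h1 _ (m v) _ (m w), h2 _ (m u) _ (m v) _ (m w)]
    ring
  · obtain ⟨k, c⟩ := h.lift g
    rw [key (h.act c (hσ v))]
    exact z2 _ _ (by rw [hq, hq]; exact h.sq_conj _ _)
  · by_contra! c
    refine H7.extraspecial_not_comm h.es (H1.isMulCommutative_iff'.2 fun x hx y hy => (hb x y).1 ?_)
    have d : ∀ x ∈ R, q x = 0 := fun x hx => by obtain ⟨v, a⟩ := h.ex' x hx; rw [← key a]; exact c v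
    have := h1 x hx y hy
    rwa [d _ (mul_mem hx hy), d x hx, d y hy, zero_add, zero_add, eq_comm] at this

theorem comm_iff {v w : LL} {x y : G} (a : P v x) (b : P w y) : x * y = y * x ↔ 16 ∣ dt v w := by
  obtain ⟨q, c, hq, hb, h1, -⟩ := h.quad
  have e := h1 x (h.mem a) y (h.mem b)
  have e1 := (hq _).trans (h.sq_iff a)
  have e2 := (hq _).trans (h.sq_iff b)
  have e3 := (hq _).trans (h.sq_iff (h.mul a b))
  rw [← hb]
  rw [e, nm_add] at e3
  have := nm16 v; have := nm16 w; have := dt8 v w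
  have z2 : ∀ s : ZMod 2, s = 0 ∨ s = 1 := by decide
  have z3 : (1 + 1 : ZMod 2) = 0 := rfl
  rcases z2 (q x) with s | s <;> rcases z2 (q y) with t | t <;> rcases z2 (c x y) with u | u <;>
    simp [s, t, u, z3] at e1 e2 e3 ⊢ <;> omega

theorem conj_of_P {v : LL} {x y : G} (a : P v x) (b : P v y) (hv : ¬ Cg v 0) : ∃ r ∈ R, r * x * r⁻¹ = y := by
  rcases (h.uniq a b).2 (Cg.refl _) with rfl | rfl
  · exact ⟨1, one_mem _, by simp⟩
  · rw [← h.iff a, not_or] at hv
    exact h.exists_nc (h.mem a) hv.1 hv.2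
theorem trans {v w : LL} {x y : G} (a : P v x) (b : P w y) (e : nm v = nm w) (hw : nm w = 32 ∨ nm w = 48 ∨ nm w = 64) :
    ∃ k ∈ Cz z, k * x * k⁻¹ = y := by
  obtain ⟨g, rfl⟩ := exists_smul_of_nm e hw
  obtain ⟨k, c⟩ := h.lift g
  obtain ⟨r, hr, d⟩ := h.conj_of_P (h.act c a) b (not_cg_zero (by omega) (by omega))
  exact ⟨r * k, mul_mem (h.le hr) k.2, by rw [← d]; simp [mul_assoc]⟩
theorem exists_short {x : G} (hx : x ∈ R) (h1 : x ≠ 1) (hz : x ≠ z) (h2 : x * x = 1) :
    ∃ v, P v x ∧ (nm v = 32 ∨ nm v = 64) := by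
  obtain ⟨v, a⟩ := h.ex' x hx
  obtain ⟨u, b, c⟩ := H13.exists_short v
  have d := h.congr a b
  refine ⟨u, d, ?_⟩
  rcases c with rfl | c | c | c
  · rcases (h.iff d).2 (Cg.refl _) with e | e
    exacts [absurd e h1, absurd e hz]
  · exact Or.inl c
  · have := (h.sq_iff d).1 h2; omega
  · exact Or.inr c

/-- image in `Co1` of a subgroup of `G` -/
abbrev im (π : Cz z →* Spor.Co1) (A : Subgroup G) : Subgroup Spor.Co1 := (A.subgroupOf (Cz z)).map π
omit [Finite G] in
theorem card_im {A : Subgroup G} (hA : A ≤ Cz z) : Nat.card (im π A) * Nat.card (A ⊓ R : Subgroup G) = Nat.card A := by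
  have := H1.card_map_mul_card_inf_ker (A.subgroupOf (Cz z)) π
  rw [H1.card_subgroupOf_of_le hA, show A.subgroupOf (Cz z) ⊓ π.ker = (A ⊓ R).subgroupOf (Cz z) from
    Subgroup.ext fun x => and_congr_right fun _ => h.ker x, H1.card_subgroupOf_of_le (inf_le_left.trans hA)] at this
  exact this
omit h [Finite G] in
theorem card_le_of_two {E : Subgroup Spor.Co1} {n : ℕ} (hE : Nat.card E ∣ 2 ^ n) : Nat.card E ≤ 2 ^ 21 := by
  obtain ⟨k, -, a⟩ := (Nat.dvd_prime_pow Nat.prime_two).1 hE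
  have b := card_subgroup_dvd_card E
  rw [a, card_Co1'] at b
  rw [a]
  refine Nat.pow_le_pow_right two_pos (not_lt.1 fun c => ?_)
  have := (pow_dvd_pow 2 c).trans b
  norm_num at this

omit [Finite G] in
theorem conj_ne_one (g : G) : g * z * g⁻¹ ≠ 1 := by rw [Ne, conj_eq_one_iff]; exact h.z_ne
omit [Finite G] in
theorem conj_sq (g : G) : g * z * g⁻¹ * (g * z * g⁻¹) = 1 := by
  rw [show g * z * g⁻¹ * (g * z * g⁻¹) = g * (z * z) * g⁻¹ by group, h.zz]; simp

/-- symmetry: if `z ∈ Q^g` then `z^g ∈ Q` -/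
theorem sym' {g : G} (hz : z ∈ MulAut.conj g • R) (hne : g * z * g⁻¹ ≠ z) : g * z * g⁻¹ ∈ R := by
  by_contra c
  have X := h.toXS.smul g
  have a := h.card_im (A := MulAut.conj g • R ⊓ Cz z) inf_le_right
  have b := X.card_cent hz h.z_ne hne.symm
  have d := (card_le_of_le (inf_le_inf_right R (inf_le_left (b := Cz z)))).trans (X.card_inf_le h.toXS hz c)
  have e := card_le_of_two (n := 24) (Dvd.intro _ (a.trans b))
  have := Nat.mul_le_mul e d
  rw [a, b] at this
  norm_num at this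
theorem sym {g : G} (hs : g * z * g⁻¹ ∈ R) (hne : g * z * g⁻¹ ≠ z) : z ∈ MulAut.conj g • R := by
  have := h.sym' (g := g⁻¹) (H1.mem_conj_smul_iff.2 (by simpa using hs)) fun a => hne (by
    conv_lhs => rw [← a]
    group)
  rw [H1.mem_conj_smul_iff]; simpa using this

theorem mem_X {v : LL} {s : G} (a : P v s) (hv : ¬ Cg v 0) {k : CC} : mk1 k ∈ im π (Cz s) ↔ Cg (k • v) v := by
  constructor
  · rintro ⟨x, hx, e⟩
    have := h.act e a
    rw [show (x : G) * s * (x⁻¹ : Cz z) = s from mem_Cz'.1 hx] at this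
    exact (h.uniq this a).1 (Or.inl rfl)
  · intro b
    obtain ⟨x, c⟩ := h.lift k
    obtain ⟨r, hr, d⟩ := h.conj_of_P (h.congr (h.act c a) b) a hv
    refine ⟨⟨r, h.le hr⟩ * x, mem_Cz'.2 ?_, by rw [map_mul, (h.ker _).2 hr, one_mul, c]⟩
    conv_rhs => rw [← d]
    simp [mul_assoc]

section
variable {g : G} (hs : g * z * g⁻¹ ∈ R) (hne : g * z * g⁻¹ ≠ z)
include hs hne
theorem card_E_mul : Nat.card (im π (MulAut.conj g • R)) * Nat.card (R ⊓ MulAut.conj g • R : Subgroup G) = 2 ^ 24 := by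
  have a := h.card_im (A := MulAut.conj g • R ⊓ Cz z) inf_le_right
  rw [(h.toXS.smul g).card_cent (h.sym hs hne) h.z_ne hne.symm, im, inf_subgroupOf_right, inf_assoc,
    inf_eq_right.2 h.le, inf_comm] at a
  exact a
theorem card_D_le : Nat.card (R ⊓ MulAut.conj g • R : Subgroup G) ≤ 2 ^ 13 :=
  h.card_le_of_comm inf_le_left ⟨h.zm, h.sym hs hne⟩ fun _ hx _ hy => h.inf_comm' (h.toXS.smul g) hne hx hy
theorem le_card_E : 2 ^ 11 ≤ Nat.card (im π (MulAut.conj g • R)) := by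
  have a := h.card_E_mul hs hne
  have b := h.card_D_le hs hne
  by_contra! c
  have := Nat.mul_lt_mul_of_lt_of_le c b (by norm_num)
  omega
omit hs hne in
theorem E_le : im π (MulAut.conj g • R) ≤ im π (Cz (g * z * g⁻¹)) :=
  map_mono (subgroupOf_mono _ (h.toXS.smul g).le)
omit hs hne in
theorem E_conj {x y : Spor.Co1} (hx : x ∈ im π (Cz (g * z * g⁻¹))) (hy : y ∈ im π (MulAut.conj g • R)) :
    x * y * x⁻¹ ∈ im π (MulAut.conj g • R) := by
  obtain ⟨x, hx, rfl⟩ := hx
  obtain ⟨y, hy, rfl⟩ := hy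
  exact ⟨x * y * x⁻¹, (h.toXS.smul g).nrm x hx y hy, by simp⟩
omit hs hne in
theorem E_pg : IsPGroup 2 (im π (MulAut.conj g • R)) := ((h.toXS.smul g).pg.comap_subtype).map π

theorem not_lU (a : P lU (g * z * g⁻¹)) : False := by
  have hv : ¬ Cg lU 0 := not_cg_zero (by rw [nm, norm_lU]; norm_num) (by rw [nm, norm_lU]; norm_num)
  have nU : nm lU = 32 := norm_lU
  let f : C2 →* Spor.Co1 := mk1.comp C2.subtype
  have hf : Function.Injective f := (injective_iff_map_eq_one f).2 fun k hk => by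
    rcases mk1_eq_one.1 hk with b | b
    · exact Subtype.ext b
    · have c : (k : CC) • lU = lU := k.2
      rw [show (k : CC) = neg1 from b, neg1_smul] at c
      exact absurd c (by decide +kernel)
  have hN : ((im π (MulAut.conj g • R)).comap f).Normal := ⟨fun y hy x => by
    rw [mem_comap, map_mul, map_mul, map_inv]
    exact h.E_conj ((h.mem_X a hv).2 (by rw [show C2.subtype x • lU = lU from x.2]; exact Cg.refl _)) hy⟩
  have := simple_C2
  rcases hN.eq_bot_or_eq_top with b | b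
  · have c := h.le_card_E hs hne
    rw [show im π (MulAut.conj g • R) = ⊥ from eq_bot_iff.2 fun y hy => ?_, card_bot] at c
    · norm_num at c
    obtain ⟨k, rfl⟩ := mk1_surj y
    rcases ((h.mem_X a hv).1 (h.E_le hy)).pm (by rw [nm_smul]; omega) (by omega) with d | d
    · have : (⟨k, d⟩ : C2) ∈ (im π (MulAut.conj g • R)).comap f := hy
      rw [b, mem_bot] at this
      rw [show k = 1 from congrArg Subtype.val this, map_one]; exact one_mem _
    · have e : neg1 * k ∈ C2 := by rw [mem_stabilizer_iff, mul_smul, d, neg1_smul, neg_neg]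
      have e' : mk1 (neg1 * k) = mk1 k := mk1_eq.2 (Or.inr rfl)
      have : (⟨_, e⟩ : C2) ∈ (im π (MulAut.conj g • R)).comap f := by
        change mk1 (neg1 * k) ∈ im π (MulAut.conj g • R); rwa [e']
      rw [b, mem_bot] at this
      rw [← e', show neg1 * k = 1 from congrArg Subtype.val this, map_one]; exact one_mem _
  · have c := (h.E_pg (g := g)).comap_of_injective f hf
    rw [b] at c
    obtain ⟨n, d⟩ := c.exists_card_eq
    rw [card_top, card_C2] at d
    have : 3 ∣ 2 ^ n := d ▸ by norm_num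
    exact absurd (Nat.prime_three.dvd_of_dvd_pow this) (by norm_num)
end

theorem type4 {g : G} (hs : g * z * g⁻¹ ∈ R) (hne : g * z * g⁻¹ ≠ z) : ∃ v, P v (g * z * g⁻¹) ∧ nm v = 64 := by
  obtain ⟨v, a, b | b⟩ := h.exists_short hs (h.conj_ne_one g) hne (h.conj_sq g)
  · obtain ⟨k, rfl⟩ := exists_smul_lU b
    exact ((h.twist k).not_lU hs hne a).elim
  · exact ⟨v, a, b⟩
theorem conj_of_type4 {v : LL} {x : G} (a : P v x) (hv : nm v = 64) : IsConj z x ∧ x ≠ z := by
  obtain ⟨g, hs, hne⟩ := h.nwc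
  obtain ⟨w, b, hw⟩ := h.type4 hs hne
  obtain ⟨k, -, c⟩ := h.trans b a (hw.trans hv.symm) (Or.inr (Or.inr hv))
  exact ⟨isConj_iff.2 ⟨k * g, by rw [← c]; group⟩, fun e =>
    not_cg_zero (by omega) (by omega) ((h.iff a).1 (Or.inr e))⟩
theorem type2 {t : G} (ht : t ∈ R) (h2 : orderOf t = 2) (hn : ¬ IsConj z t) : ∃ v, P v t ∧ nm v = 32 := by
  obtain ⟨v, a, b | b⟩ := h.exists_short ht (fun e => by rw [e, orderOf_one] at h2; omega)
    (fun e => hn (e ▸ IsConj.refl _)) (by rw [← pow_two, ← h2, pow_orderOf_eq_one])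
  · exact ⟨v, a, b⟩
  · exact absurd (h.conj_of_type4 a b).1 hn
theorem not_conj_of_type2 {v : LL} {x : G} (a : P v x) (hv : nm v = 32) : ¬ IsConj z x := fun c => by
  obtain ⟨g, rfl⟩ := isConj_iff.1 c
  obtain ⟨w, b, hw⟩ := h.type4 (h.mem a) fun e => not_cg_zero (by omega) (by omega) ((h.iff a).1 (Or.inr e))
  have := ((h.uniq a b).1 (Or.inl rfl)).nm_eq (by omega) (by omega)
  omega

/-! ### the stabiliser of the standard frame -/
omit h [Finite G] in
theorem not_cg_e8 : ¬ Cg (e8 none) 0 :=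
  not_cg_zero (by rw [nm, e8_norm]; norm_num) (by rw [nm, e8_norm])
theorem X_eq {s : G} (a : P (e8 none) s) : im π (Cz s) = NN.map mk1 := by
  ext y
  obtain ⟨k, rfl⟩ := mk1_surj y
  rw [h.mem_X a not_cg_e8, cg_e8_iff]
  refine ⟨fun b => ⟨k, b, rfl⟩, ?_⟩
  rintro ⟨k', b, c⟩
  rcases mk1_eq.1 c.symm with rfl | rfl
  · exact b
  · exact mul_mem (neg1_eq ▸ mono_mem _ _) b
end MT

/-- the sign changes -/
def SG : Subgroup CC := piN.ker.map NN.subtype
theorem mem_SG {g : CC} : g ∈ SG ↔ ∃ c, g = mono 1 c := by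
  constructor
  · rintro ⟨k, a, rfl⟩
    obtain ⟨σ, c, b⟩ := exists_mono k.2
    rw [SetLike.mem_coe, MonoidHom.mem_ker, piN_mono b] at a
    exact ⟨c, a ▸ b⟩
  · rintro ⟨c, rfl⟩
    exact ⟨⟨_, mono_mem 1 c⟩, piN_mono rfl, rfl⟩
theorem piN_surj : Function.Surjective piN := fun σ => ⟨⟨_, mono_mem σ gc0⟩, piN_mono rfl⟩
theorem card_SG : Nat.card SG = 4096 := by
  have a := card_eq_card_quotient_mul_card_subgroup piN.ker
  rw [Nat.card_congr (QuotientGroup.quotientKerEquivOfSurjective _ piN_surj).toEquiv, card_MM, card_NN] at a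
  rw [SG, card_map_of_injective NN.subtype_injective]
  omega
theorem neg1_mem_SG : neg1 ∈ SG := mem_SG.2 ⟨_, neg1_eq⟩
theorem card_SG_map : Nat.card (SG.map mk1) = 2048 := by
  have a := H1.card_map_mul_card_inf_ker SG mk1
  have b : Subgroup.center CC ≤ SG := fun g hg => by
    rcases H27.mem_center_iff.1 hg with rfl | rfl
    exacts [one_mem _, neg1_mem_SG]
  rw [QuotientGroup.ker_mk', inf_eq_right.2 b, card_center, card_SG] at a
  omega
theorem mono_comm (c d : GC) : mono 1 c * mono 1 d = mono 1 d * mono 1 c := co_ext fun x => Subtype.ext (funext fun i => by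
  simp only [mul_smul, mono_apply, inv_one, one_smul]; split_ifs <;> rfl)
theorem mono_sq (c : GC) : mono 1 c * mono 1 c = 1 := co_ext fun x => Subtype.ext (funext fun i => by
  simp only [mul_smul, mono_apply, inv_one, one_smul]; split_ifs <;> simp)
theorem mono_eq (σ : MM) (c : GC) : mono σ c = mono 1 c * pm σ := co_ext fun x => Subtype.ext (funext fun i => by
  simp only [mul_smul, mono_apply, pm_apply, inv_one, one_smul])
theorem pm_eq (σ : MM) : pm σ = mono σ gc0 := rfl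

/-- a normal 2-subgroup of the image of the monomial group consists of sign changes -/
theorem le_SG_map {E : Subgroup Spor.Co1} (h1 : E ≤ NN.map mk1) (h2 : ∀ x ∈ NN.map mk1, ∀ y ∈ E, x * y * x⁻¹ ∈ E)
    (h3 : IsPGroup 2 E) : E ≤ SG.map mk1 := by
  let f : NN →* Spor.Co1 := mk1.comp NN.subtype
  have hN : (E.comap f).Normal := ⟨fun y hy x => by
    rw [mem_comap, map_mul, map_mul, map_inv]; exact h2 _ ⟨x, x.2, rfl⟩ _ hy⟩
  have hp : IsPGroup 2 (E.comap f) := h3.comap_of_ker_isPGroup f fun k => ⟨1, Subtype.ext (Subtype.ext (by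
    rcases mk1_eq_one.1 k.2 with a | a <;> simp only [coe_subtype] at a
    · simp [a]
    · simp [a, pow_two, neg1_sq]))⟩
  have := simple_MM
  rcases (hN.map piN piN_surj).eq_bot_or_eq_top with a | a
  · intro y hy
    obtain ⟨k, b, rfl⟩ := h1 hy
    refine ⟨k, ⟨⟨k, b⟩, ?_, rfl⟩, rfl⟩
    exact (Subgroup.map_eq_bot_iff _).1 a hy
  · have b := hp.map piN
    rw [a] at b
    obtain ⟨n, d⟩ := b.exists_card_eq
    rw [card_top, card_MM] at d
    have : 3 ∣ 2 ^ n := d ▸ by norm_num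
    exact absurd (Nat.prime_three.dvd_of_dvd_pow this) (by norm_num)

namespace MT
variable {z : G} {R : Subgroup G} {π : Cz z →* Spor.Co1} {P : LL → G → Prop} (h : MT z R π P) [Finite G]
  {g : G} (hs : g * z * g⁻¹ ∈ R) (hne : g * z * g⁻¹ ≠ z)
include h hs hne
theorem E_eq (a : P (e8 none) (g * z * g⁻¹)) : im π (MulAut.conj g • R) = SG.map mk1 :=
  eq_of_le_of_card_ge (le_SG_map (h.X_eq a ▸ h.E_le) (fun _ hx _ hy => h.E_conj (h.X_eq a ▸ hx) hy) h.E_pg)
    (by rw [card_SG_map]; exact h.le_card_E hs hne)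
theorem card_D : Nat.card (R ⊓ MulAut.conj g • R : Subgroup G) = 2 ^ 13 := by
  obtain ⟨v, a, b⟩ := h.type4 hs hne
  obtain ⟨k, rfl⟩ := exists_smul_e8 b
  have c := (h.twist k).card_E_mul hs hne
  rw [(h.twist k).E_eq hs hne a, card_SG_map] at c
  omega
end MT

end
end H13
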