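import Cfsg.Agent.H13.Mon
import Cfsg.Agent.H13.XS2
/-! Groups of Monster type: the centraliser of a non-central involution of `Q`. -/
set_option autoImplicit false
namespace H13
noncomputable section
open Cfsg Subgroup H27 MulAction
open scoped Pointwise

variable {G : Type*} [Group G]

theorem nU : nm lU = 32 := norm_lU
theorem not_cg_lU : ¬ Cg lU 0 := not_cg_zero (by rw [nU]; norm_num) (by rw [nU]; norm_num)
def iC2 : C2 →* Spor.Co1 := mk1.comp C2.subtype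
theorem iC2_inj : Function.Injective iC2 := (injective_iff_map_eq_one _).2 fun k hk => by
  rcases mk1_eq_one.1 hk with b | b
  · exact Subtype.ext b
  · have c : (k : CC) • lU = lU := k.2
    rw [show (k : CC) = neg1 from b, neg1_smul] at c
    exact absurd c (by decide +kernel)
theorem mem_range_iC2 {k : CC} : mk1 k ∈ iC2.range ↔ Cg (k • lU) lU := by
  constructor
  · rintro ⟨g, a⟩
    have := cg_of_mk1 a.symm lU
    rwa [show C2.subtype g • lU = lU from g.2] at this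
  · intro a
    rcases a.pm (by rw [nm_smul, nU]; norm_num) (by rw [nU]; norm_num) with d | d
    · exact ⟨⟨k, d⟩, rfl⟩
    · exact ⟨⟨neg1 * k, by rw [mem_stabilizer_iff, mul_smul, d, neg1_smul, neg_neg]⟩, mk1_eq.2 (Or.inr rfl)⟩

def tx : LL := lv 0x421084210842108421084210843188
theorem coe_tx : (tx : VV) = vc 0x421084210842108421084210843188 := coe_lv (by decide +kernel)
theorem tx_facts : nm tx = 32 ∧ dt lU tx = 0 ∧ dt tx lU' = 0 := by simp only [nm, dt, coe_tx]; decide +kernel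
theorem dt_C2 {g : CC} (hg : g ∈ C2) (v : LL) : dt (g • v) lU = dt v lU := by
  conv_lhs => rw [← show g • lU = lU from hg]
  exact dt_smul _ _ _
/-- `Co2` is faithful on the orthogonal complement of `u` modulo `u` -/
theorem C2_faith {g : C2} (h : ∀ v : LL, 16 ∣ dt v lU → Cg ((g : CC) • v) v ∨ Cg ((g : CC) • v) (v + lU)) : g = 1 := by
  have key : ∀ {a b c : LL}, (Cg a b ∨ Cg a (b + lU)) → (Cg b c ∨ Cg b (c + lU)) → Cg a c ∨ Cg a (c + lU) := by
    rintro a b c (u | u) (v | v)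
    · exact Or.inl (u.trans v)
    · exact Or.inr (u.trans v)
    · exact Or.inr (u.trans (v.add (Cg.refl _)))
    · exact Or.inl (u.trans ((v.add (Cg.refl _)).trans ⟨lU, by abel⟩))
  have sm : ∀ (k : C2) {a b : LL}, (Cg a b ∨ Cg a (b + lU)) →
      Cg ((k : CC) • a) ((k : CC) • b) ∨ Cg ((k : CC) • a) ((k : CC) • b + lU) := fun k a b u =>
    u.imp (fun v => v.smul _) fun v => by
      have := v.smul (k : CC); rwa [smul_add, show (k : CC) • lU = lU from k.2] at this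
  let N : Subgroup C2 :=
    { carrier := {g | ∀ v : LL, 16 ∣ dt v lU → Cg ((g : CC) • v) v ∨ Cg ((g : CC) • v) (v + lU)}
      one_mem' := fun v _ => Or.inl (by simpa using Cg.refl v)
      mul_mem' := fun {a b} ha hb v hv => by
        rw [Subgroup.coe_mul, mul_smul]; exact key (ha _ (by rwa [dt_C2 b.2])) (hb v hv)
      inv_mem' := fun {a} ha v hv => by
        have := ha ((a⁻¹ : C2) • v) (by change 16 ∣ dt (((a⁻¹ : C2) : CC) • v) lU; rwa [dt_C2 (a⁻¹).2])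
        change Cg ((a : CC) • (a : CC)⁻¹ • v) ((a : CC)⁻¹ • v) ∨ Cg ((a : CC) • (a : CC)⁻¹ • v) ((a : CC)⁻¹ • v + lU) at this
        rw [smul_inv_smul] at this
        exact this.imp Cg.symm fun u => Cg.symm (((u.add (Cg.refl lU)).trans ⟨lU, by rw [coe_inv]; abel⟩)) }
  have hN : N.Normal := ⟨fun a ha k v hv => by
    have := sm k (ha ((k : CC)⁻¹ • v) (by rwa [dt_C2 (inv_mem k.2)]))
    rw [smul_inv_smul] at this
    simpa [mul_smul] using this⟩
  have := simple_C2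
  rcases hN.eq_bot_or_eq_top with a | a
  · exact mem_bot.1 (a ▸ h : g ∈ (⊥ : Subgroup C2))
  exfalso
  obtain ⟨a1, a2, a3⟩ := tx_facts
  have b1 : nm lU' = 32 := norm_lU'
  obtain ⟨k, hk, b⟩ := C2_trans (x := lU') (y := tx) norm_lU' a1 (t_facts'.2.2.trans a2.symm)
  rcases (a.ge (mem_top _) : (⟨k, hk⟩ : C2) ∈ N) lU' (by rw [dt_comm, t_facts'.2.2]; norm_num) with c | c <;>
    rw [show ((⟨k, hk⟩ : C2) : CC) • lU' = tx from b] at c
  · rcases c.pm (by omega) (by omega) with d | d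
    · rw [d, dt_self] at a3; omega
    · rw [d] at a3; change dotInt (-(lU' : VV)) _ = 0 at a3
      rw [neg_dot, ← sqNorm_eq_dot, norm_lU'] at a3; omega
  · rw [add_comm, lU_add] at c
    have := c.nm_eq (by omega) (e8_norm _).le
    rw [a1, nm, e8_norm] at this; omega

def ox : LL := lv 0x529084294a4290a42108421084210a
theorem coe_ox : (ox : VV) = vc 0x529084294a4290a42108421084210a := coe_lv (by decide +kernel)
def oc : GC := ⟨GE.fs 0xb0a051, fs_mem_GC_of (by decide +kernel)⟩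
theorem ox_facts : dt ox (e8 none) = 16 ∧ dt lU (e8 none) = 32 ∧ ox - mono 1 oc • ox = lU := by
  refine ⟨by simp only [dt, coe_ox]; decide +kernel, by decide +kernel, Subtype.ext (funext fun i => ?_)⟩
  rw [AddSubgroup.coe_sub, Pi.sub_apply, mono_apply, inv_one, one_smul, coe_ox]
  revert i; decide +kernel

namespace MT
variable {z : G} {R : Subgroup G} {π : Cz z →* Spor.Co1} {P : LL → G → Prop} (h : MT z R π P) [Finite G]
include h

theorem ne_of_not_cg {v w : LL} {x y : G} (a : P v x) (b : P w y) (c : ¬ Cg v w) : y ≠ x ∧ y ≠ x * z := by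
  rw [← h.uniq a b, not_or] at c; exact c

/-- a conjugate of `z` under `C(t)` inside `C_R(t)` -/
theorem exists_conj_t {t : G} (a : P lU t) :
    ∃ y ∈ Cz t, ∃ s, P (e8 none) s ∧ y * z * y⁻¹ = z * s := by
  obtain ⟨s, b⟩ := h.ex (e8 none)
  obtain ⟨c, hne⟩ := h.conj_of_type4 b (e8_norm _)
  obtain ⟨g, rfl⟩ := isConj_iff.1 c
  have hs := h.mem b
  have X := h.toXS.smul g
  have hz := h.sym hs hne
  have nc : ¬ Cg (e8 none) lU := fun c => by
    have := c.nm_eq (e8_norm _).le (by rw [nU]; norm_num)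
    rw [nU, nm, e8_norm] at this; omega
  have ht : t ∈ MulAut.conj g • R := by
    obtain ⟨k, hk, d⟩ : mk1 (mono 1 oc) ∈ im π (MulAut.conj g • R) := by
      rw [h.E_eq hs hne b]; exact ⟨_, mem_SG.2 ⟨oc, rfl⟩, rfl⟩
    obtain ⟨y, e⟩ := h.ex ox
    have hy : y ∈ Cz (g * z * g⁻¹) := mem_Cz.2 ((h.comm_iff e b).2 (by rw [ox_facts.1]))
    have m : (k : G) * y * (k : G)⁻¹ * y⁻¹ ∈ MulAut.conj g • R := by
      have := (MulAut.conj g • R).mul_mem hk (X.nrm y hy _ (inv_mem hk))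
      simpa [mul_assoc] using this
    have n := h.mul (h.act d e) (h.inv e)
    rcases (h.uniq n a).2 ⟨mono 1 oc • ox, by rw [← ox_facts.2.2]; abel⟩ with u | u <;> rw [u]
    exacts [m, mul_mem m hz]
  by_contra! c
  rcases X.cc ht hz fun y hy u => ((X.conj hy hz).resolve_right (c y (mem_Cz.2 u) _ b) |>
    mul_inv_eq_iff_eq_mul.1) with d | d | d | d
  · exact h.z_ne d
  · exact hne d.symm
  · exact not_cg_lU ((h.iff a).1 (Or.inr d.symm))
  · refine (h.ne_of_not_cg b a nc).2 ?_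
    rw [h.comm hs, d, mul_assoc, ← d, h.conj_sq, mul_one]

theorem baby {t : G} (a : P lU t) {Γ : Type*} [Group Γ] (f : Cz t →* Γ) (hf : Function.Surjective f)
    (hk : ∀ x, f x = 1 ↔ (x : G) = 1 ∨ (x : G) = t) : IsOfBabyMonsterType Γ := by
  have := Finite.of_surjective f hf
  have ht := h.mem a
  obtain ⟨t1, tz⟩ := not_or.1 (mt (h.iff a).1 not_cg_lU)
  have tt : t * t = 1 := (h.sq_iff a).2 (by rw [nU])
  have hz : z ∈ Cz t := mem_Cz.2 (h.comm ht).symm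
  have hk' : ∀ x y : Cz t, f x = f y ↔ (y : G) = x ∨ (y : G) = x * t := fun x y => by
    rw [← inv_mul_eq_one, ← map_inv, ← map_mul, hk, Subgroup.coe_mul, coe_inv, inv_mul_eq_one, inv_mul_eq_iff_eq_mul,
      eq_comm]
  have c1 : ∀ k : Cz t, f k * f ⟨z, hz⟩ = f ⟨z, hz⟩ * f k → (k : G) ∈ Cz z := fun k b => by
    rw [← mul_inv_eq_iff_eq_mul, ← map_inv, ← map_mul, ← map_mul, eq_comm, hk'] at b
    refine mem_Cz'.2 (b.resolve_right fun c => h.not_conj_of_type2 (h.mulz a) nU ?_)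
    rw [h.comm ht]; exact isConj_iff.2 ⟨k, c⟩
  -- the homomorphism onto `Co2`
  have hr : ∀ k : (Cz z).subgroupOf (Cz t), π ⟨k.1, k.2⟩ ∈ iC2.range := fun k => by
    obtain ⟨g, b⟩ := exists_g (π := π) ⟨k.1, k.2⟩
    rw [b, mem_range_iC2, ← h.mem_X a not_cg_lU]
    exact ⟨_, k.1.2, b⟩
  let j : (Cz z).subgroupOf (Cz t) →* Cz z :=
    ((Cz t).subtype.comp ((Cz z).subgroupOf (Cz t)).subtype).codRestrict _ fun k => k.2
  obtain ⟨φ, hφ⟩ := exists_hom_of_range iC2 iC2_inj (π.comp j) hr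
  replace hφ : ∀ k, π ⟨k.1, k.2⟩ = mk1 (φ k) := fun k => (hφ k).symm
  have φs : Function.Surjective φ := fun g => by
    obtain ⟨k, b, c⟩ := (h.mem_X a not_cg_lU (k := g)).2 (by rw [show (g : CC) • lU = lU from g.2]; exact Cg.refl _)
    exact ⟨⟨⟨k, b⟩, k.2⟩, iC2_inj ((hφ _).symm.trans c)⟩
  have φk : ∀ k, ((k.1 : Cz t) : G) ∈ R ↔ φ k = 1 := fun k => by
    rw [← map_eq_one_iff _ iC2_inj]; exact (h.ker ⟨k.1, k.2⟩).symm.trans (by rw [hφ]; rfl)
  have mS : ∀ x : Cz t, f x ∈ (R.subgroupOf (Cz t)).map f ↔ (x : G) ∈ R := fun x =>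
    ⟨fun ⟨y, hy, b⟩ => by
      rcases (hk' _ _).1 b with c | c <;> rw [c]
      exacts [hy, mul_mem hy ht], fun b => ⟨x, b, rfl⟩⟩
  have perp : ∀ {v x}, P v x → (x ∈ Cz t ↔ 16 ∣ dt v lU) := fun b => mem_Cz.trans (h.comm_iff b a)
  have X : XS (f ⟨z, hz⟩) ((R.subgroupOf (Cz t)).map f) 11 := by
    refine h.toXS.quot hf hz c1 (by norm_num) (fun b => ?_) (fun k b c => ?_) (fun x b c => ?_) ?_
    · rcases (hk _).1 b with c | c
      exacts [h.z_ne c, tz c.symm]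
    · rw [mS]
      refine (φk ⟨k, b⟩).2 (C2_faith fun v hv => ?_)
      obtain ⟨x, d⟩ := h.ex v
      have e := c ⟨x, (perp d).2 hv⟩ (h.mem d)
      rw [← mul_inv_eq_iff_eq_mul, ← map_inv, ← map_mul, ← map_mul, eq_comm, hk'] at e
      have n := h.act (hφ ⟨k, b⟩) d
      exact e.imp (fun u => (h.uniq n d).1 (Or.inl u.symm)) fun u => (h.uniq n (h.mul d a)).1 (Or.inl u.symm)
    · rcases h.cc ht b fun y hy u => by
        have e := c ⟨y, mem_Cz.2 u⟩ hy
        rw [← map_mul, ← map_mul, hk'] at e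
        refine e.resolve_right fun e => ?_
        rcases h.com hy b with n | n
        · exact t1 (mul_eq_left.1 ((n.symm.trans e).symm))
        · exact tz (mul_left_cancel (e.symm.trans n)) with d | d | d | d
      · exact Or.inl ((hk _).2 (Or.inl d))
      · exact Or.inr (congrArg f (Subtype.ext d))
      · exact Or.inl ((hk _).2 (Or.inr d))
      · exact Or.inr ((hk' _ _).2 (Or.inr (by rw [d, mul_assoc, ← h.comm ht, ← mul_assoc, tt, one_mul])))
    · have e := H1.card_map_mul_card_inf_ker (R.subgroupOf (Cz t)) f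
      have t2 : orderOf t = 2 := orderOf_eq_prime (by rw [pow_two, tt]) t1
      rw [H1.card_subgroupOf, h.card_cent ht t1 tz, show R.subgroupOf (Cz t) ⊓ f.ker = (zpowers t).subgroupOf (Cz t) from
        Subgroup.ext fun x => by
          rw [mem_inf, MonoidHom.mem_ker, hk, mem_subgroupOf, mem_subgroupOf, mem_zpowers_two t2]
          exact and_iff_right_of_imp (by rintro (u | u) <;> rw [u]; exacts [one_mem _, ht]),
        H1.card_subgroupOf_of_le (zpowers_le.2 (self_mem_Cz t)), Nat.card_zpowers, t2] at e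
      omega
  have hN := X.normal
  obtain ⟨e, he⟩ := XS.quot_equiv hf hz c1 (S := (R.subgroupOf (Cz t)).map f) (co2Equiv.toMonoidHom.comp φ)
    (co2Equiv.surjective.comp φs) fun k => (mS _).trans ((φk k).trans (map_eq_one_iff _ co2Equiv.injective).symm)
  obtain ⟨y, hy, s, b, c⟩ := h.exists_conj_t a
  have hs : s ∈ Cz t := (perp b).2 (by rw [dt_comm, ox_facts.2.1]; norm_num)
  have c' : f ⟨y, hy⟩ * f ⟨z, hz⟩ * (f ⟨y, hy⟩)⁻¹ = f ⟨z * s, mul_mem hz hs⟩ := by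
    rw [← map_inv, ← map_mul, ← map_mul]; exact congrArg f (Subtype.ext c)
  have := simple_C2
  have := co2Equiv.symm.isSimpleGroup
  have : Finite Spor.Co2 := Finite.of_equiv _ co2Equiv.toEquiv
  refine ⟨f ⟨z, hz⟩, _, hN, X.setting' e (pCore_eq_bot_of_simple ?_) (g := f ⟨y, hy⟩) ?_ ?_, e, ?_⟩
  · rw [← Nat.card_congr co2Equiv.toEquiv, card_C2]; norm_num
  · rw [c', mS]; exact mul_mem h.zm (h.mem b)
  · rw [c', Ne, eq_comm, hk']
    rintro (u | u)
    · exact not_cg_e8 ((h.iff b).1 (Or.inl (mul_eq_left.1 u)))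
    · have := ((h.uniq a b).1 (Or.inl (mul_left_cancel u))).nm_eq (by rw [nU]; norm_num) (e8_norm _).le
      rw [nU, nm, e8_norm] at this; omega
  set Q := ((R.subgroupOf (Cz t)).map f).subgroupOf (Cz (f ⟨z, hz⟩)) with hQ
  let μ : (R ⊓ Cz t : Subgroup G) → Q := fun x =>
    ⟨⟨f ⟨x, x.2.2⟩, X.le ((mS _).2 x.2.1)⟩, (mS _).2 x.2.1⟩
  have cen : ∀ q : Q, q ∈ Subgroup.center Q ↔ (q.1 : Γ) = 1 ∨ (q.1 : Γ) = f ⟨z, hz⟩ := fun q => by
    rw [← X.mem_cen, Subgroup.mem_center_iff]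
    exact ⟨fun u => ⟨q.2, fun r hr => congrArg (fun t : Q => (t.1 : Γ)) (u ⟨⟨r, X.le hr⟩, hr⟩)⟩,
      fun u r => Subtype.ext (Subtype.ext (u.2 _ r.2))⟩
  have μm : ∀ x y, μ (x * y) = μ x * μ y := fun x y => Subtype.ext (Subtype.ext (map_mul f ⟨x, x.2.2⟩ ⟨y, y.2.2⟩))
  have μk : ∀ {v} x, P v x.1 → ((QuotientGroup.mk (μ x) : Q ⧸ Subgroup.center Q) = 1 ↔ Cg v 0 ∨ Cg v lU) :=
    fun {v} x b => by
      rw [QuotientGroup.eq_one_iff, cen, ← h.iff b]
      change f _ = 1 ∨ f _ = _ ↔ _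
      rw [hk, eq_comm (a := f _), hk', ← and_iff_left trivial (a := Cg v lU)]
      have := (h.uniq a b).trans ⟨Cg.symm, Cg.symm⟩
      rw [and_true, ← this, h.comm ht]
      tauto
  choose σ hσ using h.ex
  have pv : ∀ v : leechPerpU, σ v ∈ R ⊓ Cz t := fun v => ⟨h.mem (hσ _), (perp (hσ _)).2 v.2⟩
  have key : ∀ (v : leechPerpU) x, P v x.1 →
      (QuotientGroup.mk (μ ⟨_, pv v⟩) : Q ⧸ Subgroup.center Q) = QuotientGroup.mk (μ x) := fun v x b => by
    have zm : z ∈ R ⊓ Cz t := ⟨h.zm, hz⟩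
    rcases (h.uniq b (hσ v)).2 (Cg.refl _) with u | u
    · rw [show (⟨_, pv v⟩ : (R ⊓ Cz t : Subgroup G)) = x from Subtype.ext u]
    · rw [show (⟨_, pv v⟩ : (R ⊓ Cz t : Subgroup G)) = x * ⟨z, zm⟩ from Subtype.ext u, μm, QuotientGroup.mk_mul,
        (μk ⟨z, zm⟩ h.zero.2).2 (Or.inl (Cg.refl _)), mul_one]
  refine ⟨fun v => QuotientGroup.mk (μ ⟨_, pv v⟩), fun v w => ?_, fun q => ?_, fun v => ?_, fun k g u x y b q c => ?_⟩
  · beta_reduce
    rw [key (v + w) (⟨_, pv v⟩ * ⟨_, pv w⟩) (h.mul (hσ _) (hσ _)), μm, QuotientGroup.mk_mul]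
  · obtain ⟨q, rfl⟩ := QuotientGroup.mk_surjective q
    obtain ⟨x, hx, u⟩ := q.2
    obtain ⟨v, b⟩ := h.ex' _ hx
    exact ⟨⟨v, (perp b).1 x.2⟩, (key _ ⟨x, hx, x.2⟩ b).trans (congrArg _ (Subtype.ext (Subtype.ext u)))⟩
  · beta_reduce; rw [μk _ (hσ _), cg_zero_iff]; rfl
  · obtain ⟨k, rfl⟩ := XS.res_surj hf hz c1 k
    rw [he] at u
    subst u
    have n := h.act (hφ k) (hσ x)
    rw [show ((φ k : C2) : CC) • (x : LL) = y from b] at n
    have m : (k.1 : G) * σ x * (k.1 : G)⁻¹ ∈ R ⊓ Cz t :=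
      ⟨h.mem n, (Cz t).mul_mem (mul_mem k.1.2 (pv x).2) (inv_mem k.1.2)⟩
    beta_reduce at c ⊢
    rw [key y ⟨_, m⟩ n, QuotientGroup.eq, cen]
    rw [QuotientGroup.eq, cen] at c
    have e1 : ((μ ⟨_, m⟩).1 : Γ) = f k.1 * (μ ⟨_, pv x⟩).1 * (f k.1)⁻¹ := by
      change f _ = f k.1 * f _ * (f k.1)⁻¹
      rw [← map_inv, ← map_mul, ← map_mul]; rfl
    change ((μ ⟨_, m⟩).1 : Γ)⁻¹ * (f k.1 * q.1 * (f k.1)⁻¹) = 1 ∨ ((μ ⟨_, m⟩).1 : Γ)⁻¹ * (f k.1 * q.1 * (f k.1)⁻¹) = _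
    change ((μ ⟨_, pv x⟩).1 : Γ)⁻¹ * q.1 = 1 ∨ ((μ ⟨_, pv x⟩).1 : Γ)⁻¹ * q.1 = _ at c
    rw [e1, show (f k.1 * (μ ⟨_, pv x⟩).1 * (f k.1)⁻¹)⁻¹ * (f k.1 * q.1 * (f k.1)⁻¹) =
      f k.1 * (((μ ⟨_, pv x⟩).1 : Γ)⁻¹ * q.1) * (f k.1)⁻¹ by group]
    exact c.imp (fun u => by rw [u]; simp) fun u => by rw [u]; exact mem_Cz'.1 (XS.map_mem_Cz hz k.2)
end MT

end
end H13
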