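import Cfsg.Agent.H13.CF2
import Cfsg.Agent.H13.Mon
import Cfsg.Agent.H13.LX4
import Cfsg.Agent.H27.LOut
/-! Groups of Monster type: centralisers of elements of odd order of the involution centraliser. -/
set_option autoImplicit false
namespace H13
noncomputable section
open MulAction Cfsg H27 Subgroup
variable {G : Type*} [Group G]

/-- the centraliser of `γ` in `Co0` modulo `± γ ^ i` is `L` -/
structure CD (γ : CC) (w : ℕ) {L : Type*} [Group L] (φ : Cz γ →* L) : Prop where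
  surj : Function.Surjective φ
  ker : ∀ g, φ g = 1 ↔ mk1 g ∈ zpowers (mk1 γ)
  faith : ∀ g : Cz γ, (∀ x : Kl, γ • x = x → (g : CC) • x = x) → φ g = 1
  card : {x : Kl | γ • x = x}.ncard = 2 ^ (2 * w)
  core : pCore 2 L = ⊥

theorem comm_of_mk1 {g γ : CC} (ho : Odd (orderOf γ)) (h : mk1 g * mk1 γ = mk1 γ * mk1 g) : g ∈ Cz γ :=
  mem_Cz.2 (comm_of_pm1 ho (pow_orderOf_eq_one γ) (mk1_eq_one.1 (by rw [map_mul, map_inv, map_mul, map_mul, h, mul_inv_cancel])))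
theorem mem_cent_zpowers {b x : G} : x ∈ centralizer (zpowers b : Set G) ↔ x ∈ Cz b := by
  rw [zpowers_eq_closure, centralizer_closure]

namespace MT
variable {z : G} {R : Subgroup G} {π : Cz z →* Spor.Co1} {P : LL → G → Prop} (h : MT z R π P) [Finite G]
include h

theorem ncard_P (T : Kl → Prop) : {x | ∃ v, P v x ∧ T (kl v)}.ncard = 2 * {c | T c}.ncard := by
  choose r hr using kl_surj
  choose σ hσ using h.ex
  have i1 : Function.Injective fun c => σ (r c) := fun c d e => by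
    rw [← hr c, ← hr d, kl_eq, ← h.uniq (hσ _) (hσ _)]; exact Or.inl e.symm
  have i2 : Function.Injective fun c => σ (r c) * z := fun c d e => i1 (mul_right_cancel e)
  rw [show {x | ∃ v, P v x ∧ T (kl v)} = (fun c => σ (r c)) '' {c | T c} ∪ (fun c => σ (r c) * z) '' {c | T c} from ?_,
    Set.ncard_union_eq ?_ (Set.toFinite _) (Set.toFinite _), Set.ncard_image_of_injective _ i1,
    Set.ncard_image_of_injective _ i2, two_mul]
  · rw [Set.disjoint_left]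
    rintro _ ⟨c, -, rfl⟩ ⟨d, -, e⟩
    have : d = c := by rw [← hr c, ← hr d, kl_eq, ← h.uniq (hσ _) (hσ _)]; exact Or.inr e.symm
    subst this
    exact h.ne_mul _ e
  · ext x
    refine ⟨fun ⟨v, a, b⟩ => ?_, ?_⟩
    · exact ((h.uniq (hσ (r (kl v))) a).2 (kl_eq.1 (hr _))).imp (fun c => ⟨_, b, c.symm⟩) fun c => ⟨_, b, c.symm⟩
    · rintro (⟨c, a, rfl⟩ | ⟨c, a, rfl⟩)
      exacts [⟨_, hσ _, by rwa [hr]⟩, ⟨_, h.mulz (hσ _), by rwa [hr]⟩]

theorem fix_iff {b : Cz z} {γ : CC} (hb : π b = mk1 γ) (ho : Odd (orderOf b)) {v : LL} {x : G} (a : P v x) :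
    x ∈ Cz (b : G) ↔ γ • kl v = kl v := by
  rw [smul_kl, kl_eq, show Cg (γ • v) v ↔ Cg v (γ • v) from ⟨Cg.symm, Cg.symm⟩, ← h.uniq a (h.act hb a), mem_Cz, eq_comm,
    ← mul_inv_eq_iff_eq_mul]
  refine ⟨Or.inl, fun c => c.elim id fun c => ?_⟩
  rw [coe_inv] at c
  have e : Commute x ((b : G) ^ 2) := by
    rw [Commute, SemiconjBy, eq_comm, ← mul_inv_eq_iff_eq_mul]
    calc _ = b * (b * x * (b : G)⁻¹) * (b : G)⁻¹ := by simp [pow_two, mul_assoc]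
      _ = b * x * (b : G)⁻¹ * (b * z * (b : G)⁻¹) := by conv_lhs => rw [c]
                                                        group
      _ = x := by rw [c, mem_Cz'.1 b.2, mul_assoc, h.zz, mul_one]
  obtain ⟨k, hk⟩ := ho
  have := e.pow_right (k + 1)
  rw [← pow_mul, show 2 * (k + 1) = orderOf (b : G) + 1 by rw [orderOf_coe]; omega, pow_succ, pow_orderOf_eq_one,
    one_mul] at this
  exact mul_inv_eq_iff_eq_mul.2 this.eq.symm

theorem lift_cent {b : Cz z} {γ : CC} (hb : π b = mk1 γ) (ho : Odd (orderOf b)) {g : CC} (hg : g ∈ Cz γ) :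
    ∃ k : Cz z, (k : G) ∈ Cz (b : G) ∧ π k = mk1 g := by
  have := H1.map_centralizer_of_surjective h.surj (A := zpowers b) (by
    rw [Nat.card_zpowers, show π.ker = R.subgroupOf _ from Subgroup.ext h.ker, H1.card_subgroupOf_of_le h.le, h.card]
    exact (ho.coprime_two_right.pow_right _)) (Or.inl inferInstance)
  rw [MonoidHom.map_zpowers, hb] at this
  obtain ⟨k, a, c⟩ := this.ge (mem_cent_zpowers.2 (mem_Cz.2 (by rw [← map_mul, mem_Cz.1 hg, map_mul]) : mk1 g ∈ _))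
  exact ⟨k, mem_Cz.2 (congrArg Subtype.val (mem_Cz.1 (mem_cent_zpowers.1 a))), c⟩

theorem odd_type {b : Cz z} {γ : CC} (hb : π b = mk1 γ) (ho : Odd (orderOf b)) (hγ : Odd (orderOf γ)) (hN : γ ∈ NN)
    {w : ℕ} (hw : 1 ≤ w) {L : Type*} [Group L] {φ : Cz γ →* L} (D : CD γ w φ) {Γ : Type*} [Group Γ]
    {B : Subgroup G} (hB : zpowers (b : G) = B) {f : centralizer (B : Set G) →* Γ} (hf : Function.Surjective f)
    (hk : ∀ x, f x = 1 ↔ (x : G) ∈ B) : ∃ (t : Γ) (Q : Subgroup (Cz t)) (_ : Q.Normal),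
      IsExtraspecialCentralizerSetting t Q w ∧ Nonempty (Cz t ⧸ Q ≃* L) ∧
      {x : Cz t | x ∈ Q ∧ IsConj t (x : Γ)}.ncard = 2 * {x : Kl | γ • x = x ∧ ¬ Sh x}.ncard + 1 := by
  have := Finite.of_surjective f hf
  have hA : B ≤ Cz z := hB ▸ zpowers_le.2 b.2
  have ho' : Odd (Nat.card B) := by rwa [← hB, Nat.card_zpowers, orderOf_coe]
  have mc : ∀ {x}, x ∈ centralizer (B : Set G) ↔ x ∈ Cz (b : G) := hB ▸ mem_cent_zpowers
  have hz : z ∈ centralizer (B : Set G) := mc.2 (mem_Cz.2 (mem_Cz.1 b.2).symm)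
  have fx : ∀ {v x}, P v x → (x ∈ centralizer (B : Set G) ↔ γ • kl v = kl v) := fun a =>
    mc.trans (h.fix_iff hb ho a)
  have eg : ∀ k : Cz z, (k : G) ∈ centralizer (B : Set G) → ∃ g : Cz γ, π k = mk1 g := fun k a => by
    obtain ⟨g, c⟩ := exists_g (π := π) k
    refine ⟨⟨g, comm_of_mk1 hγ ?_⟩, c⟩
    rw [← c, ← hb, ← map_mul, ← map_mul]
    exact congrArg π (Subtype.ext (mem_Cz.1 (mc.1 a)))
  have kk : ∀ k : Cz z, π k ∈ zpowers (mk1 γ) → ∃ a ∈ B, (k : G) * a ∈ R := by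
    rintro k ⟨i, a⟩
    refine ⟨_, hB.le (zpow_mem (mem_zpowers _) (-i)), (h.ker (k * b ^ (-i))).1 ?_⟩
    rw [map_mul, map_zpow, hb, ← a]; simp
  have BC : B ≤ centralizer (B : Set G) := hB.ge.trans (zpowers_le.2 (mc.2 (self_mem_Cz _)))
  obtain ⟨X, c1⟩ := h.toXS.odd_quot hA ho' hf hk hz hw (by
      rw [pow_succ, ← D.card, mul_comm, ← h.ncard_P, ← Nat.card_coe_set_eq]
      refine Nat.card_congr (Equiv.subtypeEquivRight fun x => ⟨fun a => ?_, fun ⟨v, a, c⟩ => ⟨h.mem a, (fx a).2 c⟩⟩)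
      obtain ⟨v, c⟩ := h.ex' x a.1
      exact ⟨v, c, (fx c).1 a.2⟩) fun k a c => by
    have kz : k ∈ Cz z := mem_Cz.2 (c z ⟨h.zm, hz⟩)
    obtain ⟨g, d⟩ := eg ⟨k, kz⟩ a
    obtain ⟨y, e, u⟩ := kk ⟨k, kz⟩ (d ▸ (D.ker g).1 (D.faith g fun x hx => by
      obtain ⟨v, rfl⟩ := kl_surj x
      obtain ⟨x, e⟩ := h.ex v
      exact kl_eq.2 ((h.uniq (h.act d e) e).1 (Or.inl (conj_eq_iff.2 (c x ⟨h.mem e, (fx e).2 hx⟩)).symm))))
    replace u : k * y ∈ R := u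
    rcases h.cent_odd hA ho' ⟨u, mul_mem a (BC e)⟩ fun x hx => (c x hx).mul_left (hx.2 y e) with t | t
    · exact Or.inl (by rw [eq_inv_of_mul_eq_one_left t]; exact inv_mem e)
    · refine Or.inr ?_
      rw [eq_mul_inv_of_mul_eq t, mul_assoc, mem_Cz.1 (hA (inv_mem e)), ← mul_assoc, h.zz, one_mul]
      exact inv_mem e
  let ψ := (mk1.comp (Cz γ).subtype).rangeRestrict
  let χ := ψ.liftOfSurjective (MonoidHom.rangeRestrict_surjective _) ⟨φ, fun g a => (D.ker g).2 (by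
    rw [show mk1 g = 1 from congrArg Subtype.val a]; exact one_mem _)⟩
  let j : (Cz z).subgroupOf (centralizer (B : Set G)) →* Cz z :=
    ((centralizer (B : Set G)).subtype.comp (Subgroup.subtype _)).codRestrict _ fun k => k.2
  let θ := χ.comp ((π.comp j).codRestrict _ fun k => (eg (j k) k.1.2).imp fun _ => Eq.symm)
  have hθ : ∀ k (g : Cz γ), π (j k) = mk1 g → θ k = φ g := fun k g a =>
    (congrArg χ (Subtype.ext a : _ = ψ g)).trans (ψ.liftOfRightInverse_comp_apply _ _ _ g)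
  have hN' := X.normal
  obtain ⟨e, -⟩ := XS.quot_equiv hf hz c1 (S := (R.subgroupOf _).map f) θ (fun l => by
      obtain ⟨g, rfl⟩ := D.surj l
      obtain ⟨k, a, c⟩ := h.lift_cent hb ho g.2
      exact ⟨⟨⟨k, mc.2 a⟩, k.2⟩, hθ _ g c⟩) fun k => by
    obtain ⟨g, a⟩ := eg (j k) k.1.2
    rw [hθ k g a, D.ker, ← a]
    refine ⟨fun ⟨x, c, d⟩ => ?_, fun c => ?_⟩
    · obtain ⟨i, d⟩ := hB.ge ((hk (x⁻¹ * k.1)).1 (by simp [d]))
      refine ⟨i, ?_⟩
      have : j k = ⟨x, h.le c⟩ * b ^ i := Subtype.ext (inv_mul_eq_iff_eq_mul.1 d.symm)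
      rw [this, map_mul, (h.ker ⟨x, h.le c⟩).2 c, one_mul, map_zpow, hb]
    · obtain ⟨y, c, d⟩ := kk _ c
      exact ⟨k.1 * ⟨y, BC c⟩, d, by rw [map_mul, (hk ⟨y, _⟩).2 c, mul_one]⟩
  have sw : ∀ {v y} (a : P v y) (c : γ • kl v = kl v), nm v = 64 → IsConj (f ⟨z, hz⟩) (f ⟨y, (fx a).2 c⟩) := by
    intro v y a c d
    obtain ⟨u, ne⟩ := h.conj_of_type4 a d
    obtain ⟨g, rfl⟩ := _root_.isConj_iff.1 u
    obtain ⟨x, p, q⟩ := h.toXS.odd_swap (by norm_num) hA ho' ⟨h.mem a, (fx a).2 c⟩ ne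
    exact (f.map_isConj (_root_.isConj_iff.2 ⟨⟨x, (sup_le inf_le_right inf_le_right : _ ≤ centralizer (B : Set G)) p⟩,
      Subtype.ext q⟩)).symm
  have fi : ∀ x y : centralizer (B : Set G), (x : G) ∈ R → (y : G) ∈ R → f x = f y → x = y := fun x y a c d =>
    inv_mul_eq_one.1 (Subtype.ext (h.inf_odd ho' (mul_mem (inv_mem a) c) ((hk (x⁻¹ * y)).1 (by simp [d]))))
  refine ⟨f ⟨z, hz⟩, _, hN', ?_, ⟨e⟩, ?_⟩
  · obtain ⟨s, a⟩ := h.ex (e8 none)
    obtain ⟨g, c⟩ := _root_.isConj_iff.1 (sw a (stab_e8.ge hN) (e8_norm _))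
    refine X.setting' e D.core (g := g) (c ▸ ⟨_, h.mem a, rfl⟩) fun d => (h.conj_of_type4 a (e8_norm _)).2 ?_
    exact congrArg Subtype.val (fi _ _ (h.mem a) h.zm (c.symm.trans d))
  have m : ∀ y ∈ insert z {x | ∃ v, P v x ∧ γ • kl v = kl v ∧ ¬ Sh (kl v)}, y ∈ R ⊓ centralizer (B : Set G) := by
    rintro y (rfl | ⟨v, a, c, -⟩)
    exacts [⟨h.zm, hz⟩, ⟨h.mem a, (fx a).2 c⟩]
  have n : z ∉ {x | ∃ v, P v x ∧ γ • kl v = kl v ∧ ¬ Sh (kl v)} := fun ⟨v, a, _, c⟩ =>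
    c ⟨0, by rw [nm_zero]; norm_num, kl_eq.2 ((h.iff a).1 (Or.inr rfl)).symm⟩
  rw [← h.ncard_P fun x => γ • x = x ∧ ¬ Sh x, ← Set.ncard_insert_of_notMem n]
  symm
  refine Set.ncard_congr (fun y a => ⟨f ⟨y, (m y a).2⟩, X.le ⟨_, (m y a).1, rfl⟩⟩) (fun y a => ⟨⟨_, (m y a).1, rfl⟩, ?_⟩)
    (fun x y a c d => congrArg Subtype.val (fi _ _ (m x a).1 (m y c).1 (congrArg Subtype.val d))) ?_
  · rcases a with rfl | ⟨v, a, c, d⟩
    · exact IsConj.refl _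
    · obtain ⟨u, p, q⟩ := exists_of_not_sh d
      exact sw (h.congr a (kl_eq.1 q.symm)) (q ▸ c) p
  · rintro ⟨_, hx⟩ ⟨⟨y, a, rfl⟩, c⟩
    replace a : (y : G) ∈ R := a
    obtain ⟨k, c⟩ := _root_.isConj_iff.1 c
    obtain ⟨k, rfl⟩ := hf k
    have d := (hk ((k * ⟨z, hz⟩ * k⁻¹)⁻¹ * y)).1 (by rw [map_mul, map_inv, map_mul, map_mul, map_inv, c]; simp)
    have y2 : ((y : G) ^ 2) ^ 2 = 1 := by
      rcases h.sq a with u | u <;> rw [pow_two (y : G), u]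
      exacts [one_pow _, (pow_two z).trans h.zz]
    have e1 : (k : G) * z * (k : G)⁻¹ = y := by
      change ((k : G) * z * (k : G)⁻¹)⁻¹ * y ∈ B at d
      have cm : Commute ((k : G) * z * (k : G)⁻¹) (((k : G) * z * (k : G)⁻¹)⁻¹ * y) :=
        (mul_mem (mul_mem k.2 hz) (inv_mem k.2) _ d).symm
      have := cm.mul_pow 2
      rw [mul_inv_cancel_left, pow_two ((k : G) * z * _), h.conj_sq, one_mul] at this
      rw [this, pow_two] at y2
      have t := eq_one_of_odd ho' (pow_mem d 2) y2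
      exact inv_mul_eq_one.1 (eq_one_of_odd ho' d (by rwa [pow_two] at t))
    refine ⟨y, ?_, rfl⟩
    by_cases u : (y : G) = z
    · exact Or.inl u
    · obtain ⟨v, p, q⟩ := h.type4 (e1 ▸ a) (e1 ▸ u)
      rw [e1] at p
      exact Or.inr ⟨v, p, (fx p).1 y.2, not_sh q⟩
end MT

end
end H13
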