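import Cfsg.Agent.H13.MonC
import Cfsg.Agent.H27.MCls
/-! Groups of Monster type: subgroups of odd prime order centralising two commuting conjugates of `z`. -/
set_option autoImplicit false
namespace H13
noncomputable section
open MulAction Cfsg H27 Subgroup
variable {G : Type*} [Group G]

theorem cent_pair (z s : G) : centralizer ({z, s} : Set G) = Cz z ⊓ Cz s := Subgroup.ext fun x => by
  simp [mem_centralizer_iff]
theorem ord_neg1 : orderOf neg1 = 2 := orderOf_eq_prime (co_ext fun x => by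
  rw [pow_two, mul_smul, neg1_smul, neg1_smul, neg_neg, one_smul]) fun h =>
    e8_ne_neg none none (by rw [← neg1_smul, h, one_smul])
theorem neg1_comm (g : CC) : Commute neg1 g := co_ext fun x => by
  rw [mul_smul, mul_smul, neg1_smul, neg1_smul, smul_neg]
theorem neg1_mem_NN : neg1 ∈ NN := neg1_eq ▸ mono_mem _ _
theorem card_map_mk1 {A : Subgroup CC} (h : neg1 ∈ A) : Nat.card (A.map mk1) * 2 = Nat.card A := by
  rw [← H1.card_map_mul_card_inf_ker A mk1, show A ⊓ mk1.ker = zpowers neg1 from Subgroup.ext fun x => by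
    rw [mem_inf, MonoidHom.mem_ker, mk1_eq_one, mem_zpowers_two ord_neg1]
    exact and_iff_right_of_imp (by rintro (u | u) <;> rw [u]; exacts [one_mem _, h]), Nat.card_zpowers, ord_neg1]
theorem exists_odd_lift {k : CC} {p : ℕ} (hp : Odd p) (h : mk1 k ^ p = 1) : ∃ g, g ^ p = 1 ∧ (g = k ∨ g = neg1 * k) := by
  rcases mk1_eq_one.1 ((map_pow mk1 k p).trans h) with a | a
  · exact ⟨k, a, Or.inl rfl⟩
  · obtain ⟨n, rfl⟩ := hp
    refine ⟨_, ?_, Or.inr rfl⟩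
    rw [(neg1_comm k).mul_pow, a, ← pow_succ, show 2 * n + 1 + 1 = 2 * (n + 1) by ring, pow_mul, ← ord_neg1,
      pow_orderOf_eq_one, one_pow]
theorem exists_conj_pm {k : CC} (hk : k ∈ NN) {p : ℕ} (hp : p.Prime) (h2 : p ≠ 2) (ho : orderOf k = p) :
    ∃ n ∈ NN, ∃ τ, n * k * n⁻¹ = pm τ := by
  have := Fact.mk hp
  obtain ⟨S⟩ : Nonempty (Sylow p MM) := inferInstance
  obtain ⟨n, a, τ, -, b⟩ := exists_conj_mem_sylow (H := NN) (P := (S : Subgroup MM).map pm) hp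
    (by rintro _ ⟨τ, -, rfl⟩; exact pm_mem τ) ((card_map_of_injective pm_inj).trans S.card_eq_multiplicity) (fun c => by
      rw [card_NN, ← card_MM] at c
      exact Nat.pow_succ_factorization_not_dvd Nat.card_pos.ne' hp (Nat.Coprime.dvd_of_dvd_mul_left
        (Nat.Coprime.pow_left _ (((Nat.coprime_primes hp Nat.prime_two).2 h2).pow_right 12)) c)) hk (j := 1)
    (by rw [ho, pow_one])
  exact ⟨n, a, τ, b.symm⟩
theorem mk1_pm_inj : Function.Injective (mk1.comp pm) := (injective_iff_map_eq_one _).2 fun σ hσ => by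
  rcases mk1_eq_one.1 hσ with c | c
  · exact pm_inj (c.trans (map_one _).symm)
  · exact (mono_inj (c.trans neg1_eq)).1

theorem mt_e8 [Finite G] {z : G} {Q : Subgroup (Cz z)} [Q.Normal] (hM : IsOfMonsterType z Q) {s : G}
    (hsQ : ∃ hsc : s ∈ Cz z, (⟨s, hsc⟩ : Cz z) ∈ Q) (hs : IsConj z s) (hs1 : s ≠ z) :
    ∃ R π P, MT z R π P ∧ P (e8 none) s := by
  obtain ⟨h0, e, ψ, hψ⟩ := hM
  obtain ⟨g, rfl⟩ := _root_.isConj_iff.1 hs
  have h := mt_of h0 hψ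
  obtain ⟨v, a, b⟩ := h.type4 (mem_map_Cz.2 hsQ) hs1
  obtain ⟨k, rfl⟩ := exists_smul_e8 b
  exact ⟨_, _, _, h.twist k, a⟩

namespace MT
variable {z : G} {R : Subgroup G} {π : Cz z →* Spor.Co1} {P : LL → G → Prop} (h : MT z R π P) [Finite G]
  {s : G} (a : P (e8 none) s)
include h a

theorem card_inf_R : Nat.card (R ⊓ Cz s : Subgroup G) = 2 ^ 24 := by
  obtain ⟨t1, tz⟩ := not_or.1 (mt (h.iff a).1 not_cg_e8)
  exact h.card_cent (h.mem a) t1 tz
theorem card_J : Nat.card (centralizer ({z, s} : Set G)) = 2 ^ 45 * 3 ^ 3 * 5 * 7 * 11 * 23 := by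
  have b := h.card_im (A := Cz z ⊓ Cz s) inf_le_left
  have c := card_map_mk1 neg1_mem_NN
  rw [im, inf_subgroupOf_left, ← im, h.X_eq a, inf_right_comm, inf_eq_right.2 h.le, h.card_inf_R a] at b
  rw [card_NN] at c
  rw [cent_pair]; omega
theorem conj_NN {n : CC} (hn : n ∈ NN) : ∃ π' P', MT z R π' P' ∧ P' (e8 none) s ∧
    ∀ b g, π b = mk1 g → π' b = mk1 (n * g * n⁻¹) :=
  ⟨_, _, h.twist n⁻¹, h.congr a (cg_e8_iff.2 (inv_mem hn)).symm, fun b g c => by simp [c]⟩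
theorem exists_pm {B : Subgroup G} (hB : B ≤ centralizer ({z, s} : Set G)) {p : ℕ} (hp : p.Prime) (h2 : p ≠ 2)
    (hc : Nat.card B = p) : ∃ π' P', MT z R π' P' ∧ P' (e8 none) s ∧ ∃ (b : Cz z) (τ : MM), zpowers (b : G) = B ∧
      orderOf b = p ∧ orderOf τ = p ∧ π' b = mk1 (pm τ) := by
  have := Fact.mk hp
  have ho := hp.odd_of_ne_two h2
  obtain ⟨b, hb⟩ := exists_prime_orderOf_dvd_card' (G := B) p hc.symm.dvd
  rw [cent_pair] at hB
  have o : orderOf (⟨b, (hB b.2).1⟩ : Cz z) = p := (orderOf_coe _).symm.trans ((orderOf_coe b).trans hb)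
  obtain ⟨k, c, d⟩ := (h.X_eq a).le ⟨⟨b, (hB b.2).1⟩, (hB b.2).2, rfl⟩
  obtain ⟨g, e, u⟩ := exists_odd_lift (k := k) ho (by rw [d, ← map_pow, ← o, pow_orderOf_eq_one, map_one])
  have v : π ⟨b, (hB b.2).1⟩ = mk1 g := d.symm.trans (mk1_eq.2 u).symm
  have w : orderOf g = p := orderOf_eq_prime e fun t => by
    have := h.inf_odd (hc ▸ ho) ((h.ker _).1 (v.trans (by rw [t, map_one]))) b.2
    rw [show b = 1 from Subtype.ext this, orderOf_one] at hb
    exact hp.one_lt.ne hb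
  obtain ⟨n, x, τ, y⟩ := exists_conj_pm (by rcases u with rfl | rfl; exacts [c, mul_mem neg1_mem_NN c]) hp h2 w
  obtain ⟨π', P', h', a', t⟩ := h.conj_NN a x
  refine ⟨π', P', h', a', ⟨b, (hB b.2).1⟩, τ, eq_of_le_of_card_ge (zpowers_le.2 b.2) ?_, o, ?_, y ▸ t _ _ v⟩
  · rw [Nat.card_zpowers, orderOf_coe, o, hc]
  · rw [← orderOf_injective pm pm_inj, ← y, ← w]; exact (MulAut.conj n).orderOf_eq g
theorem exists_pm' {B : Subgroup G} (hB : B ≤ centralizer ({z, s} : Set G)) {p : ℕ} (hp : p.Prime) (h2 : p ≠ 2)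
    (hc : Nat.card B = p) (hp2 : ¬ p ^ 2 ∣ 244823040) {σ : MM} (hσ : orderOf σ = p) :
    ∃ π' P', MT z R π' P' ∧ P' (e8 none) s ∧ ∃ b : Cz z, zpowers (b : G) = B ∧ orderOf b = p ∧ π' b = mk1 (pm σ) := by
  obtain ⟨π', P', h', a', b, τ, c, d, e, u⟩ := h.exists_pm a hB hp h2 hc
  obtain ⟨k, -, i, v⟩ := exists_conj_zpowers (H := ⊤) hp (by rwa [card_top, card_MM]) (mem_top τ) e (mem_top σ) hσ
  obtain ⟨π'', P'', h'', a'', t⟩ := h'.conj_NN a' (pm_mem k⁻¹)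
  have w : π'' (b ^ i) = mk1 (pm σ) := by
    rw [t _ (pm (τ ^ i)) (by rw [map_zpow, u, map_zpow, map_zpow]), ← map_inv, ← map_mul, ← map_mul,
      show τ ^ i = _ from v]
    congr 2; group
  have o : orderOf (b ^ i) = p := by
    have := Fact.mk hp
    refine orderOf_eq_prime (by rw [← zpow_natCast, zpow_comm, zpow_natCast, ← d, pow_orderOf_eq_one, one_zpow]) fun x => ?_
    rw [x, map_one] at w
    rw [mk1_pm_inj (w.symm.trans (map_one _).symm), orderOf_one] at hσ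
    exact hp.one_lt.ne hσ
  refine ⟨π'', P'', h'', a'', b ^ i, eq_of_le_of_card_ge (zpowers_le.2 (c.le (zpow_mem (mem_zpowers _) i))) ?_, o, w⟩
  rw [Nat.card_zpowers, orderOf_coe, o, hc]
theorem exists_pm3 {B : Subgroup G} (hB : B ≤ centralizer ({z, s} : Set G)) (hc : Nat.card B = 3) :
    ∃ π' P', MT z R π' P' ∧ P' (e8 none) s ∧ ∃ b : Cz z, zpowers (b : G) = B ∧ orderOf b = 3 ∧
      (π' b = mk1 (pm x3a) ∨ π' b = mk1 (pm x3b)) := by
  obtain ⟨π', P', h', a', b, τ, c, d, e, u⟩ := h.exists_pm a hB Nat.prime_three (by norm_num) hc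
  rcases cls3 e with ⟨k, rfl⟩ | ⟨k, rfl⟩ <;> obtain ⟨π'', P'', h'', a'', t⟩ := h'.conj_NN a' (pm_mem k⁻¹) <;>
    refine ⟨π'', P'', h'', a'', b, c, d, ?_⟩
  · left; rw [t _ _ u, ← map_inv, ← map_mul, ← map_mul]; congr 2; group
  · right; rw [t _ _ u, ← map_inv, ← map_mul, ← map_mul]; congr 2; group

/-- a `3`-central subgroup of order three -/
theorem central_iff {b : Cz z} {γ : CC} (hb : π b = mk1 γ) (ho : orderOf b = 3) (hγ : Odd (orderOf γ))
    (hs : (b : G) ∈ Cz s) : (∃ S : Sylow 3 ↥(centralizer ({z, s} : Set G)),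
      (zpowers (b : G)).subgroupOf (centralizer ({z, s} : Set G)) ≤
        (Subgroup.center ↥(S : Subgroup ↥(centralizer ({z, s} : Set G)))).map
          (S : Subgroup ↥(centralizer ({z, s} : Set G))).subtype) ↔ 27 ∣ Nat.card ↥(Cz γ ⊓ NN) := by
  have ho' : Odd (orderOf b) := by rw [ho]; decide
  have hJ : Cz z ⊓ Cz s ⊓ Cz (b : G) ≤ centralizer ({z, s} : Set G) := inf_le_left.trans (cent_pair z s).ge
  have bJ : (b : G) ∈ Cz z ⊓ Cz s ⊓ Cz (b : G) := ⟨⟨b.2, hs⟩, self_mem_Cz _⟩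
  have f : (Nat.card (centralizer ({z, s} : Set G))).factorization 3 = 3 := by rw [h.card_J a]; decide +kernel
  have e : im π (Cz z ⊓ Cz s ⊓ Cz (b : G)) = (Cz γ ⊓ NN).map mk1 := by
    refine le_antisymm ?_ ?_
    · rintro _ ⟨k, c, rfl⟩
      obtain ⟨g, d, e⟩ := (h.X_eq a).le ⟨k, c.1.2, rfl⟩
      refine ⟨g, ⟨comm_of_mk1 hγ ?_, d⟩, e⟩
      rw [e, ← hb, ← map_mul, ← map_mul]
      exact congrArg π (Subtype.ext (mem_Cz.1 c.2))
    · rintro _ ⟨g, c, rfl⟩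
      obtain ⟨k, d, e⟩ := h.lift_cent hb ho' c.1
      rcases (h.uniq a (h.act e a)).2 (cg_e8_iff.2 c.2).symm with u | u
      · exact ⟨k, ⟨⟨k.2, mem_Cz'.2 u⟩, d⟩, e⟩
      · obtain ⟨t1, tz⟩ := not_or.1 (mt (h.iff a).1 not_cg_e8)
        obtain ⟨r, x, y⟩ := h.exists_nc_odd (A := zpowers (b : G)) (zpowers_le.2 b.2)
          (by rwa [Nat.card_zpowers, orderOf_coe])
          ⟨h.mem a, mem_cent_zpowers.2 (mem_Cz.2 (mem_Cz.1 hs).symm)⟩ t1 tz
        have rz := h.le x.1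
        refine ⟨⟨r, rz⟩ * k, ⟨⟨mul_mem rz k.2, mem_Cz'.2 ?_⟩, mul_mem (mem_cent_zpowers.1 x.2) d⟩, by
          rw [map_mul, (h.ker ⟨r, rz⟩).2 x.1, one_mul, e]⟩
        calc _ = r * (k * s * (k⁻¹ : Cz z)) * r⁻¹ := by simp [mul_assoc]
          _ = r * s * r⁻¹ * (r * z * r⁻¹) := by rw [u]; group
          _ = s := by rw [y, mem_Cz'.1 rz, mul_assoc, h.zz, mul_one]
  have c := h.card_im (A := Cz z ⊓ Cz s ⊓ Cz (b : G)) (inf_le_left.trans inf_le_left)
  have d := card_map_mk1 (A := Cz γ ⊓ NN) ⟨mem_Cz.2 (neg1_comm γ), neg1_mem_NN⟩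
  obtain ⟨n, u⟩ := (h.pg.to_inf_right (H := Cz z ⊓ Cz s ⊓ Cz (b : G))).exists_card_eq
  rw [e, u] at c
  have k : 27 ∣ Nat.card ↥(Cz z ⊓ Cz s ⊓ Cz (b : G)) ↔ 27 ∣ Nat.card ↥(Cz γ ⊓ NN) := by
    rw [← c, ← d, Nat.Coprime.dvd_mul_right (Nat.Coprime.pow_right n (by norm_num)),
      Nat.Coprime.dvd_mul_right (by norm_num)]
  rw [← k]
  refine ⟨fun ⟨S, t⟩ => ?_, fun t => ?_⟩
  · obtain ⟨x, v, w⟩ := t (show (⟨b, hJ bJ⟩ : centralizer ({z, s} : Set G)) ∈ _ from mem_zpowers (b : G))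
    rw [← H1.card_subgroupOf_of_le hJ, show 27 = Nat.card S by rw [S.card_eq_multiplicity, f]; rfl]
    refine card_dvd_of_le fun y hy => ⟨(cent_pair z s).le y.2, mem_Cz.2 ?_⟩
    have := congrArg (fun t : S => (t.1 : G)) (Subgroup.mem_center_iff.1 v ⟨y, hy⟩)
    rw [← congrArg Subtype.val w]; exact this
  · have p : IsPGroup 3 (zpowers (⟨b, bJ⟩ : ↥(Cz z ⊓ Cz s ⊓ Cz (b : G)))) := IsPGroup.of_card (n := 1)
      ((Nat.card_zpowers _).trans ((orderOf_coe _).symm.trans ((orderOf_coe b).trans ho)))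
    obtain ⟨T, v⟩ := p.exists_le_sylow
    have w : Nat.card ((T : Subgroup _).map (inclusion hJ)) = 3 ^ 3 := by
      rw [card_map_of_injective (inclusion_injective hJ), T.card_eq_multiplicity]
      congr 1
      exact le_antisymm (((Nat.factorization_le_iff_dvd Nat.card_pos.ne' Nat.card_pos.ne').2
        (card_dvd_of_le hJ) 3).trans f.le) ((Nat.prime_three.pow_dvd_iff_le_factorization Nat.card_pos.ne').1 t)
    refine ⟨Sylow.ofCard _ (w.trans (by rw [f])), ?_⟩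
    rintro ⟨_, x⟩ ⟨i, rfl⟩
    refine ⟨⟨⟨_, x⟩, ⟨b, bJ⟩ ^ i, v (zpow_mem (mem_zpowers _) i), rfl⟩, Subgroup.mem_center_iff.2 ?_, rfl⟩
    rintro ⟨_, y, -, rfl⟩
    exact Subtype.ext (Subtype.ext (Commute.zpow_right (mem_Cz.1 y.2.2) i))
end MT

end
end H13
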