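import Cfsg.Agent.H13.MonD
import Cfsg.Agent.H13.LX3
/-! Groups of Monster type: lifting elements of `Co1`, and the layer of the centraliser of an element of odd order. -/
set_option autoImplicit false
namespace H13
noncomputable section
open MulAction Cfsg H27 Subgroup H5
open scoped Pointwise commutatorElement
variable {G : Type*} [Group G]

theorem layer_le_map {Γ : Type*} [Group Γ] {f : G →* Γ} (hf : Function.Surjective f) (hk : f.ker ≤ center G) :
    layer Γ ≤ (layer G).map f := by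
  rw [← layerOf_top, layerOf_le_iff]
  intro L hL
  have e : (⁅L.comap f, L.comap f⁆ : Subgroup G).map f = L := by
    rw [map_commutator, map_comap_eq_self_of_surjective hf, hL.perfect]
  have le := (commutator_le_sup (L.comap f) (L.comap f)).trans (sup_idem _).le
  have p : ⁅(⁅L.comap f, L.comap f⁆ : Subgroup G), (⁅L.comap f, L.comap f⁆ : Subgroup G)⁆ = ⁅L.comap f, L.comap f⁆ := by
    refine le_antisymm (commutator_mono le le) (commutator_le.2 fun x a y b => ?_)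
    obtain ⟨u, c, d⟩ := e.ge a
    obtain ⟨v, c', d'⟩ := e.ge b
    have i := mem_center_iff.1 (hk (show u⁻¹ * x ∈ f.ker by simp [d]))
    have j := mem_center_iff.1 (hk (show v⁻¹ * y ∈ f.ker by simp [d']))
    have : ⁅x, y⁆ = ⁅u, v⁆ := by
      obtain ⟨x, rfl⟩ : ∃ t, x = u * t := ⟨u⁻¹ * x, by simp⟩
      obtain ⟨y, rfl⟩ : ∃ t, y = v * t := ⟨v⁻¹ * y, by simp⟩
      rw [inv_mul_cancel_left] at i j
      calc _ = u * (x * (v * y) * x⁻¹) * u⁻¹ * y⁻¹ * v⁻¹ := by rw [commutatorElement_def]; group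
        _ = u * v * (y * u⁻¹) * y⁻¹ * v⁻¹ := by rw [← i]; group
        _ = _ := by rw [← j, commutatorElement_def]; group
    exact this ▸ commutator_mem_commutator c c'
  refine e.ge.trans (map_mono (layerOf_top (G := G) ▸ CompOf.le_layerOf ⟨?_, qs_of_map f p
    (inf_le_right.trans (hk.trans (center_le_centralizer _))) (e.symm ▸ hL.qs)⟩))
  exact (SN.of_normal le (normalizer_commutator_ge_left _ _)).trans (comap_top f ▸ hL.sn.comap f)

theorem XS.mem_layer [Finite G] {z : G} {Q : Subgroup G} {w : ℕ} (h : XS z Q w) (hw : 2 ≤ w) {g k : G}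
    (a : g * z * g⁻¹ ∈ Q) (b : ¬ Commute (g * z * g⁻¹) (k * z * k⁻¹)) (c : k * z * k⁻¹ ∈ Q) : z ∈ layer G := by
  have h4 := (h.large_of_conj hw a fun e => b (by rw [e]; exact (h.cz c).symm)).2.2.2
  have h2 : pCore 2 G = ⊥ := by
    by_contra e
    have m : ∀ g, g * z * g⁻¹ ∈ normalClosure ({z} : Set G) := fun g =>
      normalClosure_normal.conj_mem z (subset_normalClosure (Set.mem_singleton z)) g
    have := (h.struct_of_core h4 e).1
    exact b (setLike_mul_comm (m g) (m k))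
  have := (h.struct h4 h2).1.le (subset_normalClosure (Set.mem_singleton z))
  rwa [generalizedFittingSubgroup, H1.fitting_eq_pCore (p := 2) (XS.odd_core h4), h2, sup_bot_eq] at this

namespace MT
variable {z : G} {R : Subgroup G} {π : Cz z →* Spor.Co1} {P : LL → G → Prop} (h : MT z R π P) [Finite G]
include h

theorem conj_of_eq {p : ℕ} (hp : p.Prime) (h2 : p ≠ 2) {b c : Cz z} (o : orderOf (π b) = p) (hb : b ^ p = 1)
    (hc : c ^ p = 1) (e : π c = π b) : ∃ r, π r ∈ zpowers (π b) ∧ r * c * r⁻¹ = b := by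
  have := Fact.mk hp
  have n : π b ≠ 1 := fun u => hp.one_lt.ne (by rw [← o, u, orderOf_one])
  have ob : orderOf b = p := orderOf_eq_prime hb fun u => n (by rw [u, map_one])
  obtain ⟨r, a, i, d⟩ := exists_conj_zpowers (H := (zpowers (π b)).comap π) hp (by
      rw [← H1.card_map_mul_card_inf_ker _ π, map_comap_eq_self_of_surjective h.surj, inf_eq_right.2 (ker_le_comap _ _),
        show π.ker = R.subgroupOf _ from Subgroup.ext h.ker, H1.card_subgroupOf_of_le h.le, h.card, Nat.card_zpowers, o, pow_two,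
        Nat.mul_dvd_mul_iff_left hp.pos]
      exact fun u => h2 ((Nat.prime_dvd_prime_iff_eq hp Nat.prime_two).1 (hp.dvd_of_dvd_pow u)))
    (mem_zpowers (π b)) ob (mem_comap.2 (e.symm ▸ mem_zpowers _)) (orderOf_eq_prime hc fun u => n (by rw [← e, u, map_one]))
  refine ⟨r, a, d.symm.trans ?_⟩
  obtain ⟨j, a⟩ := a
  have := congrArg π d
  simp only [map_mul, map_inv, map_zpow, e, ← a] at this
  refine (zpow_eq_zpow_iff_modEq.2 ?_).trans (zpow_one b)
  rw [ob, ← o, ← zpow_eq_zpow_iff_modEq, this]; group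

theorem inv_lift (k : CC) (c : GC) : ∃ x : Cz z, x * x = 1 ∧ π x = mk1 (k * mono 1 c * k⁻¹) := by
  have h' := h.twist k
  obtain ⟨s, a⟩ := h'.ex (e8 none)
  obtain ⟨u, ne⟩ := h'.conj_of_type4 a (e8_norm _)
  obtain ⟨g, rfl⟩ := _root_.isConj_iff.1 u
  have m := h'.mem a
  have X := h.toXS.smul g
  obtain ⟨y, b, d⟩ := (h'.E_eq m ne a).ge ⟨mono 1 c, mem_SG.2 ⟨c, rfl⟩, rfl⟩
  replace b : (y : G) ∈ MulAut.conj g • R := b
  replace d : π y = mk1 (k * mono 1 c * k⁻¹) := by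
    rw [map_mul, map_mul, ← d]; simp [mul_assoc]
  by_cases yR : (y : G) ∈ R
  · exact ⟨y, Subtype.ext (h.inf_sq X ne ⟨yR, b⟩), d⟩
  rcases X.sq b with e | e
  · exact ⟨y, Subtype.ext e, d⟩
  obtain ⟨q, v, w⟩ : ∃ q ∈ R ⊓ MulAut.conj g • R, ¬ Commute q (y : G) := by
    by_contra! v
    have z1 : R ⊓ MulAut.conj g • R ≤ centralizer (R ⊓ MulAut.conj g • R : Subgroup G) := fun x hx y hy =>
      h.inf_comm' X ne hy hx
    have l := X.card_le_of_comm (D := R ⊓ MulAut.conj g • R ⊔ zpowers (y : G)) (sup_le inf_le_right (zpowers_le.2 b))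
      (mem_sup_left ⟨m, X.zm⟩) fun x hx t ht => by
        have : R ⊓ MulAut.conj g • R ⊔ zpowers (y : G) ≤ centralizer (R ⊓ MulAut.conj g • R ⊔ zpowers (y : G) : Subgroup G) :=
          sup_le (le_centralizer_iff.1 (sup_le z1 (zpowers_le.2 v))) (le_centralizer_iff.1 (sup_le
            (fun x hx => mem_cent_zpowers.2 (mem_Cz.2 (v x hx))) (zpowers_le.2 (mem_cent_zpowers.2 (self_mem_Cz _)))))
        exact this ht x hx
    rw [← h.card_D m ne] at l
    exact yR ((eq_of_le_of_card_ge le_sup_left l).ge (mem_sup_right (mem_zpowers _))).1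
  refine ⟨⟨q, h.le v.1⟩ * y, Subtype.ext ?_, by rw [map_mul, (h.ker ⟨q, _⟩).2 v.1, one_mul, d]⟩
  have t := X.conj_of_not v.2 b w
  calc q * y * (q * y) = q * y * q⁻¹ * (q * q) * y := by group
    _ = y * (g * z * g⁻¹ * y) := by rw [t, h.inf_sq X ne v]; group
    _ = 1 := by rw [← X.comm b, ← mul_assoc, e, X.zz]

/-- `z` and its conjugates in `R` lie in the layer of the centraliser -/
theorem mem_layer {b : Cz z} {γ : CC} (hb : π b = mk1 γ) (ho : Odd (orderOf b)) (hγ : Odd (orderOf γ))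
    {w : ℕ} (hw : 2 ≤ w) {L : Type*} [Group L] {φ : Cz γ →* L} (D : CD γ w φ)
    {B : Subgroup G} (hB : zpowers (b : G) = B) {v u : LL} (hv : nm v = 64) (hu : nm u = 64) (fv : γ • kl v = kl v)
    (fu : γ • kl u = kl u) (nc : ¬ 16 ∣ dt v u) {s : G} (a : P v s) :
    z ∈ layerOf (centralizer (B : Set G)) ∧ s ∈ layerOf (centralizer (B : Set G)) := by
  have hA : B ≤ Cz z := hB ▸ zpowers_le.2 b.2
  have ho' : Odd (Nat.card B) := by rwa [← hB, Nat.card_zpowers, orderOf_coe]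
  have mc : ∀ {x}, x ∈ centralizer (B : Set G) ↔ x ∈ Cz (b : G) := hB ▸ mem_cent_zpowers
  have hz : z ∈ centralizer (B : Set G) := mc.2 (mem_Cz.2 (mem_Cz.1 b.2).symm)
  have fx : ∀ {v x}, P v x → (x ∈ centralizer (B : Set G) ↔ γ • kl v = kl v) := fun a =>
    mc.trans (h.fix_iff hb ho a)
  have BC : B ≤ centralizer (B : Set G) := hB.ge.trans (zpowers_le.2 (mc.2 (self_mem_Cz _)))
  have zc : B.subgroupOf (centralizer (B : Set G)) ≤ center _ := fun x hx =>
    mem_center_iff.2 fun y => Subtype.ext (y.2 x hx).symm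
  have : (B.subgroupOf (centralizer (B : Set G))).Normal := ⟨fun x hx y => by
    rwa [mem_center_iff.1 (zc hx) y, mul_inv_cancel_right]⟩
  let f := QuotientGroup.mk' (B.subgroupOf (centralizer (B : Set G)))
  have hf : Function.Surjective f := QuotientGroup.mk'_surjective _
  have hk : ∀ x, f x = 1 ↔ (x : G) ∈ B := fun x => QuotientGroup.eq_one_iff x
  obtain ⟨X, -⟩ := h.toXS.odd_quot hA ho' hf hk hz (le_of_lt hw) (by
      rw [pow_succ, ← D.card, mul_comm, ← h.ncard_P, ← Nat.card_coe_set_eq]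
      refine Nat.card_congr (Equiv.subtypeEquivRight fun x => ⟨fun a => ?_, fun ⟨v, a, c⟩ => ⟨h.mem a, (fx a).2 c⟩⟩)
      obtain ⟨v, c⟩ := h.ex' x a.1
      exact ⟨v, c, (fx c).1 a.2⟩) fun k a c => by
    have kz : k ∈ Cz z := mem_Cz.2 (c z ⟨h.zm, hz⟩)
    obtain ⟨g, d⟩ := exists_g (π := π) ⟨k, kz⟩
    obtain ⟨i, e⟩ := (D.ker ⟨g, comm_of_mk1 hγ (by
        rw [← d, ← hb, ← map_mul, ← map_mul]
        exact congrArg π (Subtype.ext (mem_Cz.1 (mc.1 a))))⟩).1 (D.faith _ fun x hx => by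
      obtain ⟨v, rfl⟩ := kl_surj x
      obtain ⟨x, e⟩ := h.ex v
      exact kl_eq.2 ((h.uniq (h.act d e) e).1 (Or.inl (conj_eq_iff.2 (c x ⟨h.mem e, (fx e).2 hx⟩)).symm)))
    have u : k * (b : G) ^ (-i) ∈ R := (h.ker (⟨k, kz⟩ * b ^ (-i))).1 (by rw [map_mul, map_zpow, hb, d, ← e]; simp)
    replace e := hB.le (zpow_mem (mem_zpowers (b : G)) (-i))
    rcases h.cent_odd hA ho' ⟨u, mul_mem a (BC e)⟩ fun x hx => (c x hx).mul_left (hx.2 _ e) with t | t
    · exact Or.inl (by rw [eq_inv_of_mul_eq_one_left t]; exact inv_mem e)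
    · refine Or.inr ?_
      rw [eq_mul_inv_of_mul_eq t, mul_assoc, mem_Cz.1 (hA (inv_mem e)), ← mul_assoc, h.zz, one_mul]
      exact inv_mem e
  have sw : ∀ {v y} (a : P v y) (c : γ • kl v = kl v), nm v = 64 → ∃ g, g * f ⟨z, hz⟩ * g⁻¹ = f ⟨y, (fx a).2 c⟩ := by
    intro v y a c d
    obtain ⟨u, ne⟩ := h.conj_of_type4 a d
    obtain ⟨g, rfl⟩ := _root_.isConj_iff.1 u
    obtain ⟨x, p, q⟩ := h.toXS.odd_swap (by norm_num) hA ho' ⟨h.mem a, (fx a).2 c⟩ ne
    exact _root_.isConj_iff.1 (f.map_isConj (_root_.isConj_iff.2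
      ⟨⟨x, (sup_le inf_le_right inf_le_right : _ ≤ centralizer (B : Set G)) p⟩, Subtype.ext q⟩)).symm
  obtain ⟨y, c⟩ := h.ex u
  obtain ⟨g, d⟩ := sw a fv hv
  obtain ⟨k, e⟩ := sw c fu hu
  have m := X.mem_layer hw (g := g) (k := k) (d ▸ ⟨_, h.mem a, rfl⟩) (by
    rw [d, e]
    refine fun t => nc ((h.comm_iff a c).1 ?_)
    have := (hk (⟨s, (fx a).2 fv⟩ * ⟨y, (fx c).2 fu⟩ * (⟨y, (fx c).2 fu⟩ * ⟨s, (fx a).2 fv⟩)⁻¹)).1
      (by rw [map_mul, map_mul, t.eq, map_inv, map_mul, mul_inv_cancel])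
    exact mul_inv_eq_one.1 (h.inf_odd ho' (mul_mem (mul_mem (h.mem a) (h.mem c)) (inv_mem (mul_mem (h.mem c) (h.mem a)))) this))
    (e ▸ ⟨_, h.mem c, rfl⟩)
  have key : ∀ x : centralizer (B : Set G), (x : G) * x = 1 → f x ∈ layer _ → (x : G) ∈ layerOf (centralizer (B : Set G)) := by
    intro x p q
    obtain ⟨l, r, t⟩ := layer_le_map hf ((QuotientGroup.ker_mk' _).le.trans zc) q
    have n := (hk (l⁻¹ * x)).1 (by simp [t])
    refine ⟨x, ?_, rfl⟩
    obtain ⟨j, o⟩ := ho'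
    have cm : Commute l (l⁻¹ * x) := mem_center_iff.1 (zc n) l
    have := cm.mul_pow (2 * j + 1)
    rw [mul_inv_cancel_left, pow_succ x, pow_mul, pow_two, show x * x = 1 from Subtype.ext p, one_pow, one_mul,
      show (l⁻¹ * x) ^ (2 * j + 1) = 1 from by
        rw [← o]; exact Subtype.ext (congrArg B.subtype (pow_card_eq_one' (x := (⟨_, n⟩ : B)))),
      mul_one] at this
    exact this ▸ pow_mem r _
  exact ⟨key ⟨z, hz⟩ h.zz m, key ⟨s, _⟩ ((h.sq_iff a).2 (by rw [hv]; norm_num)) (d ▸ layer_normal.conj_mem _ m g)⟩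
end MT

end
end H13
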